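import Cfsg.Agent.ShultGross.Core

/-!
Lemmas for automorphisms of two-power order: semisimplicity, centres and square roots.
-/

set_option autoImplicit false
set_option linter.style.haveILetI false
set_option linter.unusedSectionVars false

namespace CfsgLib.GrossTwo

open CfsgLib.ShultGross

universe u v

section

variable {k : Type*} [Field k] {V : Type*} [AddCommGroup V] [Module k V]

theorem eq_one_of_sq_apply {q a : ℕ} (hqk : (q : k) ≠ 0) (f : Module.End k V) (hf : f ^ q ^ a = 1) (v : V)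
    (hv : (f - 1) ((f - 1) v) = 0) : (f - 1) v = 0 := by
  set N := f - 1 with hN
  have hpow : ∀ l : ℕ, (f ^ l) v = v + (l : k) • N v := by
    intro l
    induction l with
    | zero => simp
    | succ l IH =>
      have hfN : ∀ w, f w = w + N w := fun w => by simp [hN]
      rw [pow_succ', Module.End.mul_apply, IH, map_add, map_smul, hfN v, hfN (N v), hv, add_zero, Nat.cast_succ,
        add_smul, one_smul]
      abel
  have h := hpow (q ^ a)
  rw [hf, Module.End.one_apply, left_eq_add, Nat.cast_pow] at h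
  exact (smul_eq_zero.1 h).resolve_left (pow_ne_zero _ hqk)

theorem mul_eq_zero_of_sq {q a b : ℕ} (hqk : (q : k) ≠ 0) (f g : Module.End k V) (hfg : Commute f g)
    (hf : f ^ q ^ a = 1) (hg : g ^ q ^ b = 1)
    (h : (f - 1) * (g - 1) * ((f - 1) * (g - 1)) = 0) : (f - 1) * (g - 1) = 0 := by
  have hc : Commute (f - 1) (g - 1) :=
    (hfg.sub_left (Commute.one_left g)).sub_right (Commute.one_right _)
  set N := f - 1
  set M := g - 1
  have hNM : ∀ v, N (M v) = M (N v) := fun v => LinearMap.congr_fun hc.eq v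
  refine LinearMap.ext fun v => ?_
  have h0 : N (M (N (M v))) = 0 := LinearMap.congr_fun h v
  rw [← hNM (M v)] at h0
  have h1 : N (M (M v)) = 0 := eq_one_of_sq_apply hqk f hf _ h0
  rw [hNM, hNM] at h1
  show N (M v) = 0
  rw [hNM]
  exact eq_one_of_sq_apply hqk g hg _ h1

variable {Q : Type*} [Group Q] [Finite Q]

/-- An element killed on all translates of a block of an irreducible system acts trivially. -/
theorem translates_faithful (ρ : Q →* Module.End k V) (σ : MulAut Q) (T : Module.End k V) {h : ℕ} (hh : 0 < h)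
    (hσ : σ ^ h = 1) (hTρ : ∀ x, T * ρ x = ρ (σ x) * T)
    (hirr : ∀ U : Submodule k V, (∀ x, ∀ v ∈ U, ρ x v ∈ U) → (∀ v ∈ U, T v ∈ U) → U = ⊥ ∨ U = ⊤)
    (W : Submodule k V) (hW0 : W ≠ ⊥) (hWQ : ∀ x, ∀ w ∈ W, ρ x w ∈ W) {x : Q}
    (hx : ∀ l : ℕ, ∀ w ∈ W, ρ ((σ ^ l) x) w = w) : ρ x = 1 := by
  let U : Submodule k V :=
    ⨅ y : {y : Q // ∀ l : ℕ, ∀ w ∈ W, ρ ((σ ^ l) y) w = w}, LinearMap.ker (ρ y - 1)
  have hU : ∀ v, v ∈ U ↔ ∀ y : Q, (∀ l : ℕ, ∀ w ∈ W, ρ ((σ ^ l) y) w = w) → ρ y v = v := fun v => by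
    simp [U, Submodule.mem_iInf, sub_eq_zero]
  have hUQ : ∀ g, ∀ v ∈ U, ρ g v ∈ U := by
    intro g v hv
    rw [hU] at hv ⊢
    intro y hy
    have h1 := hv (g⁻¹ * y * g) (fun l w hw => by
      rw [map_mul (σ ^ l), map_mul (σ ^ l), map_inv, map_mul ρ, map_mul ρ, Module.End.mul_apply,
        Module.End.mul_apply, hy l _ (hWQ _ w hw), ← Module.End.mul_apply, ← map_mul, inv_mul_cancel, map_one,
        Module.End.one_apply])
    have h2 := congrArg (ρ g) h1
    rwa [← Module.End.mul_apply, ← map_mul, ← mul_assoc, ← mul_assoc, mul_inv_cancel, one_mul, map_mul,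
      Module.End.mul_apply] at h2
  have hUT : ∀ v ∈ U, T v ∈ U := by
    intro v hv
    rw [hU] at hv ⊢
    intro y hy
    have h1 := hv ((σ ^ (h - 1)) y) (fun l => by rw [← MulAut.mul_apply, ← pow_add]; exact hy _)
    have h2 := LinearMap.congr_fun (hTρ ((σ ^ (h - 1)) y)) v
    rw [Module.End.mul_apply, Module.End.mul_apply, h1, ← MulAut.mul_apply, ← pow_succ', Nat.sub_add_cancel hh,
      hσ, MulAut.one_apply] at h2
    exact h2.symm
  have hWU : W ≤ U := fun w hw => (hU w).2 fun y hy => by simpa using hy 0 w hw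
  rcases hirr U hUQ hUT with h' | h'
  · exact absurd (eq_bot_iff.2 (hWU.trans h'.le)) hW0
  · refine LinearMap.ext fun v => ?_
    exact (hU v).1 (by rw [h']; trivial) x hx

end

/-- A square root of an element inverted by `τ`, also inverted by `τ`. -/
theorem exists_sqrt {Q : Type*} [Group Q] {q : ℕ} [Fact q.Prime] (hq2 : q ≠ 2) (hQ : IsPGroup q Q) (τ : MulAut Q)
    {w : Q} (hw : τ w = w⁻¹) : ∃ s ∈ Subgroup.zpowers w, s * s = w ∧ τ s = s⁻¹ := by
  obtain ⟨a, ha⟩ := hQ w
  have hodd : Odd (q ^ a) := (Nat.Prime.odd_of_ne_two (Fact.out) hq2).pow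
  obtain ⟨t, ht⟩ := hodd
  refine ⟨w ^ (t + 1), Subgroup.npow_mem_zpowers w _, ?_, by rw [map_pow, hw, inv_pow]⟩
  rw [← pow_add, show t + 1 + (t + 1) = q ^ a + 1 by omega, pow_succ, ha, one_mul]

theorem eq_one_of_mul_self {Q : Type*} [Group Q] {q : ℕ} [Fact q.Prime] (hq2 : q ≠ 2) (hQ : IsPGroup q Q) {w : Q}
    (hw : w * w = 1) : w = 1 := by
  obtain ⟨a, ha⟩ := hQ w
  rw [← orderOf_eq_one_iff]
  exact Nat.eq_one_of_dvd_coprimes
    (((Nat.coprime_primes (Fact.out : q.Prime) Nat.prime_two).2 hq2).pow_left a)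
    (orderOf_dvd_of_pow_eq_one ha) (orderOf_dvd_of_pow_eq_one (by rw [sq]; exact hw))

variable {k : Type*} [Field k] [IsAlgClosed k] {p n q : ℕ}

theorem fixed_on_center_aux (hp : p.Prime) (hqk : (q : k) ≠ 0) {Q : Type u} [Group Q] [Finite Q] (hQ : IsPGroup q Q)
    (σ : MulAut Q) (hσ : σ ^ p ^ (n + 1) = 1) (N : ℕ) :
    ∀ (V : Type v) [AddCommGroup V] [Module k V] [FiniteDimensional k V], Module.finrank k V = N →
      ∀ (ρ : Q →* Module.End k V) (T : Module.End k V), T ^ p ^ (n + 1) = 1 →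
      (∀ x, T * ρ x = ρ (σ x) * T) → (∀ v, T v = v → v = 0) →
      ∀ z ∈ Subgroup.center Q, ρ ((σ ^ p ^ n) z) = ρ z := by
  induction N using Nat.strong_induction_on with
  | _ N ih =>
  intro V _ _ _ hN ρ T hT hTρ hfpf z hz
  classical
  subst hN
  rcases subsingleton_or_nontrivial V with hsV | hnV
  · exact LinearMap.ext fun v => Subsingleton.elim _ _
  by_cases hred : ∃ W : Submodule k V, W ≠ ⊥ ∧ W ≠ ⊤ ∧ (∀ x, ∀ v ∈ W, ρ x v ∈ W) ∧ ∀ v ∈ W, T v ∈ W
  · obtain ⟨W, hW0, hW1, hWQ, hWT⟩ := hred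
    have hd1 : Module.finrank k W < Module.finrank k V := Submodule.finrank_lt hW1
    have hd2 : Module.finrank k (V ⧸ W) < Module.finrank k V := by
      have h1 := W.finrank_quotient_add_finrank
      have h2 := Submodule.one_le_finrank_iff.2 hW0
      omega
    have hA := ih _ hd1 W rfl (subRep ρ W hWQ) (T.restrict hWT)
      (LinearMap.ext fun w => Subtype.ext (by rw [restrict_pow, hT]; rfl))
      (fun x => LinearMap.ext fun w => Subtype.ext (by exact LinearMap.congr_fun (hTρ x) (w : V)))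
      (fun w hw => Subtype.ext (hfpf _ (congrArg Subtype.val hw))) z hz
    have hB := ih _ hd2 (V ⧸ W) rfl (quotRep ρ W hWQ) (W.mapQ W T hWT)
      (Submodule.linearMap_qext _ (LinearMap.ext fun v => by
        rw [LinearMap.comp_apply, LinearMap.comp_apply, Submodule.mkQ_apply, mapQ_pow_mk, hT]
        rfl))
      (fun x => Submodule.linearMap_qext _ (LinearMap.ext fun v => by
        show Submodule.Quotient.mk ((T * ρ x) v) = Submodule.Quotient.mk ((ρ (σ x) * T) v)
        rw [hTρ]))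
      (fun a ha => quotient_fixed_eq_zero W T hWT hfpf a ha) z hz
    set c := z⁻¹ * (σ ^ p ^ n) z with hc
    have hc1 : ∀ w ∈ W, ρ c w = w := by
      intro w hw
      have h1 : ρ ((σ ^ p ^ n) z) w = ρ z w := congrArg Subtype.val (LinearMap.congr_fun hA ⟨w, hw⟩)
      rw [hc, map_mul, Module.End.mul_apply, h1, ← Module.End.mul_apply, ← map_mul, inv_mul_cancel, map_one,
        Module.End.one_apply]
    have hc2 : ∀ v, ρ c v - v ∈ W := by
      intro v
      have h1 : Submodule.Quotient.mk (ρ ((σ ^ p ^ n) z) v) = (Submodule.Quotient.mk (ρ z v) : V ⧸ W) :=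
        LinearMap.congr_fun hB (Submodule.Quotient.mk v)
      rw [Submodule.Quotient.eq] at h1
      have h2 := hWQ z⁻¹ _ h1
      rwa [map_sub, ← Module.End.mul_apply, ← map_mul, ← Module.End.mul_apply, ← map_mul, inv_mul_cancel,
        map_one, Module.End.one_apply] at h2
    have h := eq_of_block_trivial hqk hQ ρ W _ hc1 hc2
    calc ρ ((σ ^ p ^ n) z) = ρ (z * c) := by rw [hc, mul_inv_cancel_left]
      _ = ρ z := by rw [map_mul, h, mul_one]
  push Not at hred
  refine fixed_on_central hp ρ σ T hσ hT hTρ hfpf (fun U h1 h2 => ?_) (Subgroup.center Q) (center_invariant σ)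
    (fun x hx y => by rw [← map_mul, ← map_mul, Subgroup.mem_center_iff.1 hx y]) z hz
  by_contra! h
  obtain ⟨v, hv, hv'⟩ := hred U h.1 h.2 h1
  exact hv' (h2 v hv)

theorem fixed_on_center (hp : p.Prime) (hqk : (q : k) ≠ 0) {Q : Type u} [Group Q] [Finite Q] (hQ : IsPGroup q Q)
    {V : Type v} [AddCommGroup V] [Module k V] [FiniteDimensional k V] (ρ : Q →* Module.End k V)
    (hinj : Function.Injective ρ) (σ : MulAut Q) (hσ : σ ^ p ^ (n + 1) = 1) (T : Module.End k V)
    (hT : T ^ p ^ (n + 1) = 1) (hTρ : ∀ x, T * ρ x = ρ (σ x) * T) (hfpf : ∀ v, T v = v → v = 0) :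
    ∀ z ∈ Subgroup.center Q, (σ ^ p ^ n) z = z := fun z hz =>
  hinj (fixed_on_center_aux hp hqk hQ σ hσ _ V rfl ρ T hT hTρ hfpf z hz)

end CfsgLib.GrossTwo
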