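import Cfsg.Agent.GrossTwo.Linear
import Cfsg.Agent.CoprimeAction.Frattini

/-!
An `r`-group acting on a faithfully represented `q`-group: displacements by the involution act trivially.
-/

set_option autoImplicit false
set_option linter.style.haveILetI false
set_option linter.unusedSectionVars false
set_option maxHeartbeats 400000

namespace CfsgLib.GrossTwo

open CfsgLib.ShultGross
open scoped commutatorElement

universe u v w

section lemmas

variable {Q : Type*} [Group Q] {q : ℕ} [Fact q.Prime]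

theorem exists_decomp (hq2 : q ≠ 2) (hQ : IsPGroup q Q) (τ : MulAut Q) (hττ : ∀ y, τ (τ y) = y) (y : Q) :
    ∃ c e : Q, τ c = c ∧ e * τ e = 1 ∧ y = c * e := by
  obtain ⟨s, -, hss, hτs⟩ := exists_sqrt hq2 hQ τ (w := y⁻¹ * τ y) (by rw [map_mul, map_inv, hττ]; group)
  refine ⟨y * s, s⁻¹, ?_, by rw [map_inv, hτs, inv_inv, inv_mul_cancel], (mul_inv_cancel_right y s).symm⟩
  rw [map_mul, hτs]
  calc τ y * s⁻¹ = y * (y⁻¹ * τ y) * s⁻¹ := by group
    _ = y * (s * s) * s⁻¹ := by rw [hss]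
    _ = y * s := by group

theorem commute_fixed_inverted (hq2 : q ≠ 2) (hQ : IsPGroup q Q) (τ : MulAut Q)
    (hcomm : ∀ x y : Q, ⁅x, y⁆ ∈ Subgroup.center Q) (hτZ : ∀ z ∈ Subgroup.center Q, τ z = z) {c e : Q}
    (hc : τ c = c) (he : e * τ e ∈ Subgroup.center Q) : ⁅e, c⁆ = 1 := by
  refine eq_one_of_mul_self hq2 hQ ?_
  have h1 := hτZ _ (hcomm e c)
  rw [map_commutatorElement, hc] at h1
  obtain ⟨z, hz, hze⟩ : ∃ z ∈ Subgroup.center Q, τ e = e⁻¹ * z := ⟨e * τ e, he, by rw [inv_mul_cancel_left]⟩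
  have hzc := Subgroup.mem_center_iff.1 hz
  have hw := Subgroup.mem_center_iff.1 (inv_mem (hcomm e c))
  have h2 : ⁅τ e, c⁆ = ⁅e, c⁆⁻¹ := by
    rw [hze]
    calc ⁅e⁻¹ * z, c⁆ = e⁻¹ * (z * c) * z⁻¹ * e * c⁻¹ := by rw [commutatorElement_def]; group
      _ = e⁻¹ * (c * z) * z⁻¹ * e * c⁻¹ := by rw [hzc c]
      _ = e⁻¹ * (⁅e, c⁆⁻¹ * e) := by rw [commutatorElement_def]; group
      _ = ⁅e, c⁆⁻¹ := by rw [← hw e, inv_mul_cancel_left]
  calc ⁅e, c⁆ * ⁅e, c⁆ = ⁅τ e, c⁆ * ⁅e, c⁆ := by rw [h1]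
    _ = 1 := by rw [h2, inv_mul_cancel]

theorem eq_one_of_twist {r a b : ℕ} [Fact r.Prime] (hrq : r ≠ q) {w : Q} (h1 : w ^ r ^ a = 1) (h2 : w ^ q ^ b = 1) :
    w = 1 := by
  rw [← orderOf_eq_one_iff]
  exact Nat.eq_one_of_dvd_coprimes (((Nat.coprime_primes (Fact.out : r.Prime) (Fact.out : q.Prime)).2 hrq).pow a b)
    (orderOf_dvd_of_pow_eq_one h1) (orderOf_dvd_of_pow_eq_one h2)

end lemmas

variable {k : Type v} [Field k] [IsAlgClosed k] {n q r : ℕ} [Fact q.Prime] [Fact r.Prime]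

theorem acts_trivially_aux (hq2 : q ≠ 2) (hr2 : r ≠ 2) (hqr : q ≠ r) (h2 : (2 : k) ≠ 0)
    (hqk : (q : k) ≠ 0) {R : Type w} [Group R] [Finite R] (hR : IsPGroup r R) (σR : MulAut R)
    (hσR : σR ^ 2 ^ (n + 1) = 1) (hfpfR : ∀ a, σR a = a → a = 1)
    {V : Type v} [AddCommGroup V] [Module k V] [FiniteDimensional k V] (T : Module.End k V)
    (hT : T ^ 2 ^ (n + 1) = 1) (hfpf : ∀ v, T v = v → v = 0) (N : ℕ) :
    ∀ (Q : Type u) [Group Q] [Finite Q], Nat.card Q = N → IsPGroup q Q →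
      ∀ (φ : R →* MulAut Q) (σ : MulAut Q), σ ^ 2 ^ (n + 1) = 1 → (∀ a y, σ (φ a y) = φ (σR a) (σ y)) →
      (∀ y, σ y = y → y = 1) → ∀ (ρ : Q →* Module.End k V), Function.Injective ρ →
      (∀ y, T * ρ y = ρ (σ y) * T) → ∀ a, φ (a⁻¹ * (σR ^ 2 ^ n) a) = 1 := by
  induction N using Nat.strong_induction_on with
  | _ N ih =>
  intro Q _ _ hN hQ φ σ hσ hcompat hσfpf ρ hinj hTρ
  classical
  subst hN
  set τR := σR ^ 2 ^ n with hτR
  set τ := σ ^ 2 ^ n with hτ
  have hcomp : ∀ (j : ℕ) a y, (σ ^ j) (φ a y) = φ ((σR ^ j) a) ((σ ^ j) y) := by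
    intro j
    induction j with
    | zero => intro a y; rfl
    | succ j IH =>
      intro a y
      rw [pow_succ', MulAut.mul_apply, IH, hcompat, pow_succ', MulAut.mul_apply, MulAut.mul_apply]
  have hττ : ∀ y, τ (τ y) = y := fun y => by
    rw [hτ, ← MulAut.mul_apply, ← pow_add, show 2 ^ n + 2 ^ n = 2 ^ (n + 1) by rw [pow_succ]; ring, hσ,
      MulAut.one_apply]
  set R₀ : Subgroup R := Subgroup.closure (Set.range fun a => a⁻¹ * τR a) with hR₀def
  have hgen : ∀ a, a⁻¹ * τR a ∈ R₀ := fun a => Subgroup.subset_closure ⟨a, rfl⟩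
  have hR₀conj : ∀ g, ∀ c ∈ R₀, g * c * g⁻¹ ∈ R₀ := by
    intro g c hc
    have hle : R₀ ≤ R₀.comap (MulAut.conj g).toMonoidHom := by
      rw [hR₀def, Subgroup.closure_le]
      rintro _ ⟨a, rfl⟩
      show MulAut.conj g (a⁻¹ * τR a) ∈ R₀
      have h := mul_mem (hgen (a * g⁻¹)) (inv_mem (hgen g⁻¹))
      rw [map_mul] at h
      convert h using 1
      rw [MulAut.conj_apply]
      group
    exact hle hc
  have hR₀σ : ∀ c ∈ R₀, σR c ∈ R₀ := by
    intro c hc
    have hle : R₀ ≤ R₀.comap σR.toMonoidHom := by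
      rw [hR₀def, Subgroup.closure_le]
      rintro _ ⟨a, rfl⟩
      show σR (a⁻¹ * τR a) ∈ R₀
      rw [map_mul, map_inv, hτR, ← MulAut.mul_apply, ← pow_succ', pow_succ, MulAut.mul_apply]
      exact hgen _
    exact hle hc
  -- proper invariant subgroups are fixed by `R₀`
  have hprop : ∀ H : Subgroup Q, (∀ a, ∀ y ∈ H, φ a y ∈ H) → (∀ y ∈ H, σ y ∈ H) → H ≠ ⊤ →
      ∀ c ∈ R₀, ∀ y ∈ H, φ c y = y := by
    intro H hHR hHσ hne
    have hlt : Nat.card H < Nat.card Q :=
      lt_of_le_of_ne (Subgroup.card_le_card_group H) fun h => hne (Subgroup.eq_top_of_card_eq H h)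
    let φH : R →* MulAut H :=
      { toFun := fun a => subAut (φ a) H (hHR a)
        map_one' := MulEquiv.ext fun y => Subtype.ext (by
          show φ 1 (y : Q) = y
          rw [map_one]; rfl)
        map_mul' := fun a b => MulEquiv.ext fun y => Subtype.ext (by
          show φ (a * b) (y : Q) = φ a (φ b (y : Q))
          rw [map_mul]; rfl) }
    have h := ih _ hlt H rfl (hQ.to_subgroup H) φH (subAut σ H hHσ)
      (MulEquiv.ext fun y => Subtype.ext (by rw [subAut_pow_apply, hσ]; rfl))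
      (fun a y => Subtype.ext (hcompat a (y : Q))) (fun y hy => Subtype.ext (hσfpf _ (congrArg Subtype.val hy)))
      (ρ.comp H.subtype) (hinj.comp H.subtype_injective) (fun y => hTρ (y : Q))
    intro c hc
    induction hc using Subgroup.closure_induction with
    | mem x hx =>
      obtain ⟨a, rfl⟩ := hx
      intro y hy
      exact congrArg Subtype.val (DFunLike.congr_fun (h a) ⟨y, hy⟩)
    | one => intro y _; rw [map_one]; rfl
    | mul x y _ _ hx hy => intro z hz; rw [map_mul, MulAut.mul_apply, hy z hz, hx z hz]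
    | inv x _ hx =>
      intro z hz
      apply (φ x).injective
      rw [← MulAut.mul_apply, ← map_mul, mul_inv_cancel, map_one, MulAut.one_apply, hx z hz]
  intro a₀
  by_contra hgoal
  -- unipotent elements are trivial
  have htwist : ∀ c y, φ c (y⁻¹ * φ c y) = y⁻¹ * φ c y → φ c y = y := by
    intro c y hfix
    set w := y⁻¹ * φ c y with hw
    have hit : ∀ l : ℕ, φ (c ^ l) y = y * w ^ l := by
      intro l
      induction l with
      | zero => simp
      | succ l IH =>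
        rw [pow_succ' c, map_mul, MulAut.mul_apply, IH, map_mul, map_pow, hfix, pow_succ' w, ← mul_assoc]
        rw [hw, mul_inv_cancel_left]
    obtain ⟨a, ha⟩ := hR c
    obtain ⟨b, hb⟩ := hQ w
    have h1 := hit (r ^ a)
    rw [ha, map_one, MulAut.one_apply, left_eq_mul] at h1
    exact (inv_mul_eq_one.1 (eq_one_of_twist hqr.symm h1 hb)).symm
  -- the commutator of `Q` with `R₀`
  set Q₁ : Subgroup Q := Subgroup.closure {w | ∃ c ∈ R₀, ∃ y, y⁻¹ * φ c y = w} with hQ₁
  have hQ₁R : ∀ a, ∀ w ∈ Q₁, φ a w ∈ Q₁ := by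
    intro a w hw
    have hle : Q₁ ≤ Q₁.comap (φ a).toMonoidHom := by
      rw [hQ₁, Subgroup.closure_le]
      rintro _ ⟨c, hc, y, rfl⟩
      refine Subgroup.subset_closure ⟨a * c * a⁻¹, hR₀conj a c hc, φ a y, ?_⟩
      show (φ a y)⁻¹ * φ (a * c * a⁻¹) (φ a y) = φ a (y⁻¹ * φ c y)
      rw [← MulAut.mul_apply, ← map_mul φ (a * c * a⁻¹) a, inv_mul_cancel_right, map_mul (φ a) y⁻¹, map_inv,
        map_mul φ, MulAut.mul_apply]
    exact hle hw
  have hQ₁σ : ∀ w ∈ Q₁, σ w ∈ Q₁ := by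
    intro w hw
    have hle : Q₁ ≤ Q₁.comap σ.toMonoidHom := by
      rw [hQ₁, Subgroup.closure_le]
      rintro _ ⟨c, hc, y, rfl⟩
      refine Subgroup.subset_closure ⟨σR c, hR₀σ c hc, σ y, ?_⟩
      show (σ y)⁻¹ * φ (σR c) (σ y) = σ (y⁻¹ * φ c y)
      rw [map_mul, map_inv, hcompat]
    exact hle hw
  have hQ₁top : Q₁ = ⊤ := by
    by_contra hne
    refine hgoal (MulEquiv.ext fun y => ?_)
    exact htwist _ y (hprop Q₁ hQ₁R hQ₁σ hne _ (hgen a₀) _ (Subgroup.subset_closure ⟨_, hgen a₀, y, rfl⟩))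
  haveI : Nontrivial Q := by
    by_contra h
    rw [not_nontrivial_iff_subsingleton] at h
    exact hgoal (MulEquiv.ext fun y => Subsingleton.elim _ _)
  have hΦne : frattini Q ≠ ⊤ := by
    obtain ⟨M, hM⟩ := IsCoatomic.exists_coatom (α := Subgroup Q)
    exact fun h => hM.1 (eq_top_iff.2 (h.ge.trans (frattini_le_coatom hM)))
  have hchar : ∀ H : Subgroup Q, H.Characteristic → ∀ f : MulAut Q, ∀ y ∈ H, f y ∈ H := fun H hH f y hy => by
    have h1 : H.comap f.toMonoidHom = H := hH.fixed f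
    rw [← h1] at hy
    exact hy
  set Φ := frattini Q with hΦ
  haveI : Φ.Normal := by rw [hΦ]; infer_instance
  have hΦfix := hprop Φ (fun a => hchar _ inferInstance (φ a)) (hchar _ inferInstance σ) hΦne
  have hΦZ : Φ ≤ Subgroup.center Q := by
    intro a ha
    rw [Subgroup.mem_center_iff]
    intro g
    have hle : Q₁ ≤ Subgroup.centralizer {a} := by
      rw [hQ₁, Subgroup.closure_le]
      rintro _ ⟨c, hc, y, rfl⟩
      rw [SetLike.mem_coe, Subgroup.mem_centralizer_singleton_iff]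
      have h1 := hΦfix c hc _ ((inferInstance : Φ.Normal).conj_mem a ha y)
      rw [map_mul, map_mul, map_inv, hΦfix c hc a ha] at h1
      calc y⁻¹ * φ c y * a = y⁻¹ * (φ c y * a * (φ c y)⁻¹) * φ c y := by group
        _ = y⁻¹ * (y * a * y⁻¹) * φ c y := by rw [h1]
        _ = a * (y⁻¹ * φ c y) := by group
    exact Subgroup.mem_centralizer_singleton_iff.1 (hle (by rw [hQ₁top]; trivial : g ∈ _))
  have hcommΦ : ∀ x y : Q, ⁅x, y⁆ ∈ Φ := fun x y =>
    CoprimeAction.commutator_le_frattini' hQ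
      (Subgroup.commutator_mem_commutator (Subgroup.mem_top x) (Subgroup.mem_top y))
  have hcomm : ∀ x y : Q, ⁅x, y⁆ ∈ Subgroup.center Q := fun x y => hΦZ (hcommΦ x y)
  have hτZ : ∀ z ∈ Subgroup.center Q, τ z = z :=
    fixed_on_center Nat.prime_two hqk hQ ρ hinj σ hσ T hT hTρ hfpf
  have hZne : Subgroup.center Q ≠ ⊤ := by
    intro h
    refine hgoal (MulEquiv.ext fun y => ?_)
    have hall : ∀ y, τ y = y := fun y => hτZ y (by rw [h]; trivial)
    have h1 := hcomp (2 ^ n) a₀ y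
    rw [← hτ, ← hτR, hall, hall] at h1
    rw [map_mul, MulAut.mul_apply, ← h1, ← MulAut.mul_apply, ← map_mul, inv_mul_cancel, map_one]
  have hZfix := hprop (Subgroup.center Q) (fun a => hchar _ inferInstance (φ a)) (center_invariant σ) hZne
  -- elements whose commutators are separated from those of inverted elements
  have hcl : ∀ a b y : Q, ⁅a * b, y⁆ = ⁅b, y⁆ * ⁅a, y⁆ := fun a b y => by
    calc ⁅a * b, y⁆ = a * ⁅b, y⁆ * (y * a⁻¹ * y⁻¹) := by simp only [commutatorElement_def]; group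
      _ = ⁅b, y⁆ * a * (y * a⁻¹ * y⁻¹) := by rw [Subgroup.mem_center_iff.1 (hcomm b y) a]
      _ = ⁅b, y⁆ * ⁅a, y⁆ := by simp only [commutatorElement_def]; group
  let Good : Q → Prop := fun y => ∀ y' d d' : Q, d * τ d ∈ Subgroup.center Q → d' * τ d' ∈ Subgroup.center Q →
    (ρ ⁅y, y'⁆ - 1) * (ρ ⁅d, d'⁆ - 1) = 0
  let N : Subgroup Q :=
    { carrier := {y | Good y}
      one_mem' := fun y' d d' _ _ => by simp
      mul_mem' := fun {a b} ha hb y' d d' hd hd' => by
        rw [hcl, map_mul, show ρ ⁅b, y'⁆ * ρ ⁅a, y'⁆ - 1 = ρ ⁅b, y'⁆ * (ρ ⁅a, y'⁆ - 1) + (ρ ⁅b, y'⁆ - 1) by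
          rw [mul_sub, mul_one]; abel, add_mul, mul_assoc, ha y' d d' hd hd', mul_zero, zero_add,
          hb y' d d' hd hd']
      inv_mem' := fun {a} ha y' d d' hd hd' => by
        have h1 : ⁅a, y'⁆ * ⁅a⁻¹, y'⁆ = 1 := by rw [← hcl, inv_mul_cancel, commutatorElement_one_left]
        rw [eq_inv_of_mul_eq_one_right h1, show ρ ⁅a, y'⁆⁻¹ - 1 = -(ρ ⁅a, y'⁆⁻¹ * (ρ ⁅a, y'⁆ - 1)) by
          rw [mul_sub, ← map_mul, inv_mul_cancel, map_one, mul_one, neg_sub], neg_mul, mul_assoc,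
          ha y' d d' hd hd', mul_zero, neg_zero] }
  have hmemN : ∀ y, y ∈ N ↔ Good y := fun y => Iff.rfl
  have hNτ : ∀ y ∈ N, τ y ∈ N := by
    intro y hy
    rw [hmemN] at hy ⊢
    intro y' d d' hd hd'
    have h1 := hy (τ y') d d' hd hd'
    rwa [← hτZ _ (hcomm y (τ y')), map_commutatorElement, hττ] at h1
  have hfixN : ∀ y ∈ N, τ y = y := by
    intro y hy
    set w := y⁻¹ * τ y with hw
    have hwN : Good w := (hmemN w).1 (mul_mem (inv_mem hy) (hNτ y hy))
    have hτw : τ w = w⁻¹ := by rw [hw, map_mul, map_inv, hττ]; group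
    have hwD : w * τ w ∈ Subgroup.center Q := by rw [hτw, mul_inv_cancel]; exact one_mem _
    have hwZ : w ∈ Subgroup.center Q := by
      refine Subgroup.mem_center_iff.2 fun y' => ?_
      obtain ⟨c, e, hc, he, rfl⟩ := exists_decomp hq2 hQ τ hττ y'
      have h1 : ⁅w, c⁆ = 1 := commute_fixed_inverted hq2 hQ τ hcomm hτZ hc hwD
      have h2' : ⁅w, e⁆ = 1 := by
        refine hinj ?_
        rw [map_one]
        obtain ⟨b, hb⟩ := hQ ⁅w, e⁆
        refine LinearMap.ext fun v => ?_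
        have h3 := eq_one_of_sq_apply (a := b) hqk (ρ ⁅w, e⁆) (by rw [← map_pow, hb, map_one]) v
          (LinearMap.congr_fun (hwN e w e hwD (by rw [he]; exact one_mem _)) v)
        rwa [LinearMap.sub_apply, sub_eq_zero] at h3
      rw [commutatorElement_eq_one_iff_mul_comm] at h1 h2'
      rw [← mul_assoc w, h1, mul_assoc c w, h2', mul_assoc]
    have h4 : w * w = 1 := by
      nth_rewrite 1 [← hτZ w hwZ]
      rw [hτw, inv_mul_cancel]
    exact (inv_mul_eq_one.1 (eq_one_of_mul_self hq2 hQ h4)).symm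
  have hNR₀ : ∀ c ∈ R₀, ∀ y ∈ N, φ c y ∈ N := by
    intro c hc y hy
    rw [hmemN] at hy ⊢
    intro y' d d' hd hd'
    obtain ⟨y'', rfl⟩ := (φ c).surjective y'
    rw [← map_commutatorElement, hZfix c hc _ (hcomm y y'')]
    exact hy y'' d d' hd hd'
  have hNfix : ∀ c ∈ R₀, ∀ y ∈ N, φ c y = y := by
    intro c hc y hy
    have hbase : ∀ a, φ (a⁻¹ * τR a) y = y := by
      intro a
      set c := a⁻¹ * τR a with hc'
      have hτc : τR c = c⁻¹ := by
        have hRR : τR (τR a) = a := by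
          rw [hτR, ← MulAut.mul_apply, ← pow_add, show 2 ^ n + 2 ^ n = 2 ^ (n + 1) by rw [pow_succ]; ring, hσR,
            MulAut.one_apply]
        rw [hc', map_mul, map_inv, hRR]; group
      have h1 := hcomp (2 ^ n) c y
      rw [← hτ, ← hτR, hfixN _ (hNR₀ c (hgen a) y hy), hfixN y hy, hτc] at h1
      have h2' : φ (c * c) y = y := by
        rw [map_mul, MulAut.mul_apply, h1, ← MulAut.mul_apply, ← map_mul, mul_inv_cancel, map_one,
          MulAut.one_apply]
      obtain ⟨b, hb⟩ := hR c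
      obtain ⟨t, ht⟩ : Odd (r ^ b) := (Nat.Prime.odd_of_ne_two (Fact.out) hr2).pow
      have hpow : ∀ l : ℕ, φ ((c * c) ^ l) y = y := by
        intro l
        induction l with
        | zero => simp
        | succ l IH => rw [pow_succ, map_mul, MulAut.mul_apply, h2', IH]
      have := hpow (t + 1)
      rwa [← sq, ← pow_mul, show 2 * (t + 1) = r ^ b + 1 by omega, pow_succ, hb, one_mul] at this
    induction hc using Subgroup.closure_induction with
    | mem x hx => obtain ⟨a, rfl⟩ := hx; exact hbase a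
    | one => rw [map_one]; rfl
    | mul x z _ _ hx hz => rw [map_mul, MulAut.mul_apply, hz, hx]
    | inv x _ hx =>
      apply (φ x).injective
      rw [← MulAut.mul_apply, ← map_mul, mul_inv_cancel, map_one, MulAut.one_apply, hx]
  -- the quotient by the fixed points of `R₀`
  let P : Subgroup Q :=
    { carrier := {y | ∀ c ∈ R₀, φ c y = y}
      one_mem' := fun c _ => map_one _
      mul_mem' := fun {a b} ha hb c hc => by rw [map_mul, ha c hc, hb c hc]
      inv_mem' := fun {a} ha c hc => by rw [map_inv, ha c hc] }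
  have hPR : ∀ a, ∀ y ∈ P, φ a y ∈ P := by
    intro a y hy c hc
    have h1 := hy (a⁻¹ * c * a) (by simpa using hR₀conj a⁻¹ c hc)
    have h2' := congrArg (φ a) h1
    rwa [← MulAut.mul_apply, ← map_mul, ← mul_assoc, ← mul_assoc, mul_inv_cancel, one_mul, map_mul,
      MulAut.mul_apply] at h2'
  have hPσ : ∀ y ∈ P, σ y ∈ P := by
    intro y hy c hc
    have h1 := hy _ (symm_mem hR₀σ hc)
    have h2' := hcompat (σR.symm c) y
    rw [h1, MulEquiv.apply_symm_apply] at h2'
    exact h2'.symm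
  have hΦP : Φ ≤ P := fun y hy c hc => hΦfix c hc y hy
  haveI : P.Normal := ⟨fun y hy g => by
    have h1 := mul_mem (hΦP (hcommΦ g y)) hy
    rwa [commutatorElement_def, inv_mul_cancel_right] at h1⟩
  letI instM : CommGroup (Q ⧸ P) :=
    { (inferInstance : Group (Q ⧸ P)) with
      mul_comm := fun a b => by
        induction a using QuotientGroup.induction_on with
        | H x =>
        induction b using QuotientGroup.induction_on with
        | H y =>
          rw [← QuotientGroup.mk_mul, ← QuotientGroup.mk_mul, QuotientGroup.eq,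
            show (x * y)⁻¹ * (y * x) = ⁅y⁻¹, x⁻¹⁆ by rw [commutatorElement_def]; group]
          exact hΦP (hcommΦ _ _) }
  have hexp : ∀ v : Q ⧸ P, v ^ q = 1 := by
    intro v
    induction v using QuotientGroup.induction_on with
    | H x =>
      rw [← QuotientGroup.mk_pow, QuotientGroup.eq_one_iff]
      exact hΦP (CoprimeAction.pow_mem_frattini hQ x)
  obtain ⟨d, Φm, hΦinj, hΦfpf, hΦdef⟩ := exists_model (s := q) (Q ⧸ P) hexp
  let ψ : R →* MulAut (Q ⧸ P) :=
    { toFun := fun a => quotAut (φ a) P (hPR a)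
      map_one' := MulEquiv.ext fun v => by
        induction v using QuotientGroup.induction_on with
        | H x => rw [quotAut_mk, map_one]; rfl
      map_mul' := fun a b => MulEquiv.ext fun v => by
        induction v using QuotientGroup.induction_on with
        | H x => rw [quotAut_mk, MulAut.mul_apply, quotAut_mk, quotAut_mk, map_mul]; rfl }
  set s := quotAut σ P hPσ with hsdef
  have hs : s ^ 2 ^ (n + 1) = 1 := quotAut_pow_eq_one P hPσ hσ
  have hsψ : ∀ a, s * ψ a = ψ (σR a) * s := fun a => MulEquiv.ext fun v => by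
    induction v using QuotientGroup.induction_on with
    | H x =>
      show s (quotAut (φ a) P (hPR a) x) = quotAut (φ (σR a)) P (hPR _) (s x)
      rw [quotAut_mk, hsdef, quotAut_mk, quotAut_mk, quotAut_mk, hcompat]
  have hdef := hΦdef (s ^ 2 ^ n) (s ^ 2 ^ (n - 1)) (fun v hv => by
      induction v using QuotientGroup.induction_on with
      | H y =>
        rw [hsdef, quotAut_pow_mk, ← hτ, QuotientGroup.eq] at hv
        rw [hsdef, quotAut_pow_mk]
        have hw : y⁻¹ * τ y ∈ P := by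
          have := inv_mem hv
          rwa [mul_inv_rev, inv_inv] at this
        obtain ⟨z, hz, hzz, hτz⟩ := exists_sqrt hq2 hQ τ (w := y⁻¹ * τ y) (by rw [map_mul, map_inv, hττ]; group)
        have hzP : z ∈ P := (Subgroup.zpowers_le.2 hw) hz
        have hyz : τ (y * z) = y * z := by
          rw [map_mul, hτz]
          calc τ y * z⁻¹ = y * (y⁻¹ * τ y) * z⁻¹ := by group
            _ = y * (z * z) * z⁻¹ := by rw [hzz]
            _ = y * z := by group
        have hu : (y * z)⁻¹ * (σ ^ 2 ^ (n - 1)) (y * z) ∈ P := fun c hc =>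
          hNfix c hc _ ((hmemN _).2 fun y' d d' hd hd' =>
            prod_eq_zero hq2 h2 hqk hQ ρ σ hσ T hT hTρ hfpf hcomm hτZ hd hd' hyz y')
        have e1 : ((y * z : Q) : Q ⧸ P) = (y : Q ⧸ P) := by
          rw [QuotientGroup.mk_mul, (QuotientGroup.eq_one_iff z).2 hzP, mul_one]
        have e2 : (((σ ^ 2 ^ (n - 1)) (y * z) : Q) : Q ⧸ P) = ((y * z : Q) : Q ⧸ P) := by
          rw [eq_comm, QuotientGroup.eq]; exact hu
        rw [e1, map_mul, QuotientGroup.mk_mul, (QuotientGroup.eq_one_iff _).2 (pow_apply_mem hPσ _ hzP),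
          mul_one] at e2
        exact e2)
    (fun v => by
      rw [← MulAut.mul_apply, ← pow_add, show 2 ^ n + 2 ^ n = 2 ^ (n + 1) by rw [pow_succ]; ring, hs,
        MulAut.one_apply])
  haveI : CharP (AlgebraicClosure (ZMod q)) q :=
    charP_of_injective_algebraMap (algebraMap (ZMod q) (AlgebraicClosure (ZMod q))).injective q
  have hcast : ∀ l : ℕ, l.Prime → l ≠ q → ((l : ℕ) : AlgebraicClosure (ZMod q)) ≠ 0 := fun l hl hne h => by
    rw [CharP.cast_eq_zero_iff (AlgebraicClosure (ZMod q)) q] at h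
    exact hne.symm ((Nat.prime_dvd_prime_iff_eq Fact.out hl).1 h)
  have key := pow_fixed_two (p := 2) Nat.prime_two rfl (hcast 2 Nat.prime_two hq2.symm) (hcast r Fact.out hqr.symm)
    hr2 hR (Φm.comp ψ) σR (Φm s) hσR (by rw [← map_pow, hs, map_one])
    (fun a => by
      show Φm s * Φm (ψ a) = Φm (ψ (σR a)) * Φm s
      rw [← map_mul, hsψ, map_mul])
    hfpfR
    (hΦfpf s (quotAut_fpf σ P hPσ fun y hy => mem_of_displacement_mem σ hσfpf P hPσ hy))
    (by rw [← map_pow, ← map_pow]; exact hdef) a₀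
  refine hgoal (MulEquiv.ext fun y => htwist _ y ?_)
  have h1 : ψ (a₀⁻¹ * τR a₀) = 1 := by
    rw [map_mul, hΦinj key, ← map_mul, inv_mul_cancel, map_one]
  have h2' : ((φ (a₀⁻¹ * τR a₀) y : Q) : Q ⧸ P) = (y : Q ⧸ P) := by
    rw [← quotAut_mk _ P (hPR _)]
    exact DFunLike.congr_fun h1 (y : Q ⧸ P)
  rw [eq_comm, QuotientGroup.eq] at h2'
  exact h2' _ (hgen a₀)

theorem acts_trivially (hq2 : q ≠ 2) (hr2 : r ≠ 2) (hqr : q ≠ r) (h2 : (2 : k) ≠ 0)
    (hqk : (q : k) ≠ 0) {R : Type w} [Group R] [Finite R] (hR : IsPGroup r R) {Q : Type u} [Group Q] [Finite Q]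
    (hQ : IsPGroup q Q) (φ : R →* MulAut Q) (σR : MulAut R) (σ : MulAut Q)
    (hσR : σR ^ 2 ^ (n + 1) = 1) (hσ : σ ^ 2 ^ (n + 1) = 1) (hcompat : ∀ a y, σ (φ a y) = φ (σR a) (σ y))
    (hfpfR : ∀ a, σR a = a → a = 1) (hσfpf : ∀ y, σ y = y → y = 1)
    {V : Type v} [AddCommGroup V] [Module k V] [FiniteDimensional k V] (ρ : Q →* Module.End k V)
    (hinj : Function.Injective ρ) (T : Module.End k V) (hT : T ^ 2 ^ (n + 1) = 1)
    (hTρ : ∀ y, T * ρ y = ρ (σ y) * T) (hfpf : ∀ v, T v = v → v = 0) (a : R) :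
    φ (a⁻¹ * (σR ^ 2 ^ n) a) = 1 :=
  acts_trivially_aux hq2 hr2 hqr h2 hqk hR σR hσR hfpfR T hT hfpf _ Q rfl hQ φ σ hσ hcompat hσfpf ρ hinj hTρ a

end CfsgLib.GrossTwo
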