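import Cfsg.Agent.GrossTwo.Spectrum

/-!
On an irreducible system on which commutators of inverted elements act nontrivially, the elements fixed by the last
power are fixed by the one before it.
-/

set_option autoImplicit false
set_option linter.style.haveILetI false
set_option linter.unusedSectionVars false
set_option maxHeartbeats 400000

namespace CfsgLib.GrossTwo

open CfsgLib.ShultGross
open scoped commutatorElement

variable {k : Type*} [Field k] [IsAlgClosed k]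

/-- An intertwiner out of a block with full spectrum commutes with the endomorphisms. -/
theorem hom_commutes {W₀ W : Type*} [AddCommGroup W₀] [Module k W₀] [FiniteDimensional k W₀] [AddCommGroup W]
    [Module k W] [FiniteDimensional k W] {E : Type*} [Group E] [Finite E] (ρ₀ : E →* Module.End k W₀)
    (ρ : E →* Module.End k W) (hirr : ∀ U : Submodule k W₀, (∀ x, ∀ v ∈ U, ρ₀ x v ∈ U) → U = ⊥ ∨ U = ⊤)
    (σ : MulAut E) (T₀ : Module.End k W₀) (T : Module.End k W) {h : ℕ} (hk : (h : k) ≠ 0)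
    (hσ : σ ^ h = 1) (hT₀ : T₀ ^ h = 1) (hT : T ^ h = 1)
    (hTρ₀ : ∀ x, T₀ * ρ₀ x = ρ₀ (σ x) * T₀) (hTρ : ∀ x, T * ρ x = ρ (σ x) * T)
    (hspec : ∀ ω : k, ω ^ h = 1 → ω ≠ 1 → ∃ w : W₀, w ≠ 0 ∧ T₀ w = ω • w) (hfpf : ∀ w, T w = w → w = 0)
    (f : W₀ →ₗ[k] W) (hf : ∀ x, f.comp (ρ₀ x) = (ρ x).comp f) : f.comp T₀ = T.comp f := by
  classical
  have hh : h ≠ 0 := fun h0 => hk (by rw [h0, Nat.cast_zero])
  let M : Submodule k (W₀ →ₗ[k] W) :=
    ⨅ x : E, LinearMap.ker (LinearMap.lcomp k W (ρ₀ x) - LinearMap.llcomp k W₀ W W (ρ x))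
  have hM : ∀ g, g ∈ M ↔ ∀ x, g.comp (ρ₀ x) = (ρ x).comp g := fun g => by
    simp [M, Submodule.mem_iInf, sub_eq_zero, LinearMap.ext_iff]
  let Θ : (W₀ →ₗ[k] W) →ₗ[k] (W₀ →ₗ[k] W) :=
    (LinearMap.llcomp k W₀ W W T).comp (LinearMap.lcomp k W (T₀ ^ (h - 1)))
  have hΘ : ∀ g v, Θ g v = T (g ((T₀ ^ (h - 1)) v)) := fun g v => rfl
  have hΘl : ∀ (l : ℕ) g v, (Θ ^ l) g v = (T ^ l) (g ((T₀ ^ ((h - 1) * l)) v)) := by
    intro l
    induction l with
    | zero => intro g v; simp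
    | succ l IH =>
      intro g v
      rw [pow_succ', Module.End.mul_apply, hΘ, IH, pow_succ' T, Module.End.mul_apply,
        show (h - 1) * (l + 1) = (h - 1) * l + (h - 1) by ring, pow_add, Module.End.mul_apply]
  have hMΘ : ∀ g ∈ M, Θ g ∈ M := by
    intro g hg
    rw [hM] at hg ⊢
    intro x
    refine LinearMap.ext fun v => ?_
    show Θ g (ρ₀ x v) = ρ x (Θ g v)
    rw [hΘ, hΘ]
    set y := (σ ^ (h - 1)) x
    have h1 : (T₀ ^ (h - 1)) (ρ₀ x v) = ρ₀ y ((T₀ ^ (h - 1)) v) :=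
      LinearMap.congr_fun (pow_semiconj hTρ₀ (h - 1) x) v
    rw [h1, show g (ρ₀ y ((T₀ ^ (h - 1)) v)) = ρ y (g ((T₀ ^ (h - 1)) v)) from LinearMap.congr_fun (hg y) _,
      ← Module.End.mul_apply, hTρ, Module.End.mul_apply]
    congr 2
    rw [← MulAut.mul_apply, ← pow_succ', Nat.sub_add_cancel (Nat.one_le_iff_ne_zero.2 hh), hσ, MulAut.one_apply]
  let θ : Module.End k M := Θ.restrict hMΘ
  have hθh : θ ^ h = 1 := by
    have hgen : ∀ (l : ℕ) (g : M), ((θ ^ l) g : W₀ →ₗ[k] W) = (Θ ^ l) g := by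
      intro l
      induction l with
      | zero => intro g; rfl
      | succ l IH => intro g; rw [pow_succ', Module.End.mul_apply, pow_succ', Module.End.mul_apply, ← IH]; rfl
    refine LinearMap.ext fun g => Subtype.ext ?_
    rw [hgen, Module.End.one_apply]
    refine LinearMap.ext fun v => ?_
    rw [hΘl, hT, Module.End.one_apply, mul_comm, pow_mul, hT₀, one_pow, Module.End.one_apply]
  obtain ⟨s, _, e, ev, hev, hevh⟩ := exists_eigenbasis hk θ hθh
  have hback : ∀ g v, Θ g (T₀ v) = T (g v) := fun g v => by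
    rw [hΘ, ← Module.End.mul_apply (T₀ ^ (h - 1)), ← pow_succ, Nat.sub_add_cancel (Nat.one_le_iff_ne_zero.2 hh),
      hT₀, Module.End.one_apply]
  have hev1 : ∀ i, ev i = 1 := by
    intro i
    by_contra hne
    have hμ : ev i ≠ 0 := fun h0 => zero_ne_one (α := k) (by
      have := hevh i
      rwa [h0, zero_pow hh] at this)
    obtain ⟨w, hw0, hw⟩ := hspec (ev i)⁻¹ (by rw [inv_pow, hevh, inv_one]) (fun h1 => hne (inv_eq_one.1 h1))
    set g : W₀ →ₗ[k] W := (e i : W₀ →ₗ[k] W) with hg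
    have hgM := (hM g).1 (e i).2
    have hΘg : Θ g = ev i • g := congrArg Subtype.val (hev i)
    have hgw : g w = 0 := by
      refine hfpf _ ?_
      rw [← hback, hΘg, LinearMap.smul_apply, hw, map_smul, smul_smul, mul_inv_cancel₀ hμ, one_smul]
    rcases hirr (LinearMap.ker g) (fun x v hv => by
      rw [LinearMap.mem_ker] at hv ⊢
      rw [show g (ρ₀ x v) = ρ x (g v) from LinearMap.congr_fun (hgM x) v, hv, map_zero]) with h' | h'
    · exact hw0 ((Submodule.mem_bot k).1 (h' ▸ LinearMap.mem_ker.2 hgw))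
    · exact e.ne_zero i (Subtype.ext (LinearMap.ker_eq_top.1 h'))
  have hθ1 : θ = 1 := e.ext fun i => by rw [hev i, hev1 i, one_smul, Module.End.one_apply]
  have hΘf : Θ f = f := congrArg Subtype.val (LinearMap.congr_fun hθ1 ⟨f, (hM f).2 hf⟩)
  refine LinearMap.ext fun v => ?_
  rw [LinearMap.comp_apply, LinearMap.comp_apply, ← hback, hΘf]

theorem killed {n : ℕ} {q : ℕ} [Fact q.Prime] (hq2 : q ≠ 2) (h2 : (2 : k) ≠ 0) (hqk : (q : k) ≠ 0)
    {Q : Type*} [Group Q] [Finite Q] (hQ : IsPGroup q Q) {V : Type*} [AddCommGroup V] [Module k V]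
    [FiniteDimensional k V] [Nontrivial V] (ρ : Q →* Module.End k V) (σ : MulAut Q) (T : Module.End k V)
    (hσ : σ ^ 2 ^ (n + 1) = 1) (hT : T ^ 2 ^ (n + 1) = 1) (hTρ : ∀ x, T * ρ x = ρ (σ x) * T)
    (hfpf : ∀ v, T v = v → v = 0)
    (hirr : ∀ U : Submodule k V, (∀ x, ∀ v ∈ U, ρ x v ∈ U) → (∀ v ∈ U, T v ∈ U) → U = ⊥ ∨ U = ⊤)
    (hcomm : ∀ x y : Q, ⁅x, y⁆ ∈ Subgroup.center Q)
    (hτZ : ∀ z ∈ Subgroup.center Q, (σ ^ 2 ^ n) z = z)
    {d d' : Q} (hd : d * (σ ^ 2 ^ n) d ∈ Subgroup.center Q) (hd' : d' * (σ ^ 2 ^ n) d' ∈ Subgroup.center Q)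
    (hne : ρ ⁅d, d'⁆ ≠ 1) {x : Q} (hx : (σ ^ 2 ^ n) x = x) : ρ ((σ ^ 2 ^ (n - 1)) x) = ρ x := by
  classical
  set Z := Subgroup.center Q with hZdef
  set τ := σ ^ 2 ^ n with hτdef
  have hZσ := center_invariant σ
  have hστ : ∀ (l : ℕ) (y : Q), τ ((σ ^ l) y) = (σ ^ l) (τ y) := fun l y => by
    rw [hτdef, ← MulAut.mul_apply, ← MulAut.mul_apply, pow_mul_comm]
  have hττ : ∀ y, τ (τ y) = y := fun y => by
    rw [hτdef, ← MulAut.mul_apply, ← pow_add, show 2 ^ n + 2 ^ n = 2 ^ (n + 1) by rw [pow_succ]; ring, hσ,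
      MulAut.one_apply]
  haveI : Z.Normal := by rw [hZdef]; infer_instance
  have hswap : ∀ a b : Q, ((a * b : Q) : Q ⧸ Z) = ((b * a : Q) : Q ⧸ Z) := fun a b => by
    rw [QuotientGroup.eq, show (a * b)⁻¹ * (b * a) = ⁅b⁻¹, a⁻¹⁆ by rw [commutatorElement_def]; group]
    exact hcomm _ _
  -- the elements inverted modulo the centre
  let D : Subgroup Q :=
    { carrier := {y | y * τ y ∈ Z}
      one_mem' := by simp
      mul_mem' := fun {a b} ha hb => by
        show a * b * τ (a * b) ∈ Z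
        replace ha : a * τ a ∈ Z := ha
        replace hb : b * τ b ∈ Z := hb
        rw [← QuotientGroup.eq_one_iff] at ha hb ⊢
        rw [map_mul, mul_assoc, ← mul_assoc b, QuotientGroup.mk_mul, QuotientGroup.mk_mul (N := Z) _ (τ b),
          hswap b (τ a), ← QuotientGroup.mk_mul, ← QuotientGroup.mk_mul, mul_assoc (τ a), ← mul_assoc a,
          QuotientGroup.mk_mul, ha, hb, one_mul]
      inv_mem' := fun {a} ha => by
        show a⁻¹ * τ a⁻¹ ∈ Z
        replace ha : a * τ a ∈ Z := ha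
        rw [← QuotientGroup.eq_one_iff] at ha ⊢
        rw [hswap, map_inv, ← mul_inv_rev, QuotientGroup.mk_inv, ha, inv_one] }
  have hmemD : ∀ y, y ∈ D ↔ y * τ y ∈ Z := fun y => Iff.rfl
  have hDσ : ∀ y ∈ D, σ y ∈ D := fun y hy => by
    rw [hmemD] at hy ⊢
    have h1 := hZσ _ hy
    have h2 := hστ 1 y
    rw [pow_one] at h2
    rwa [map_mul, ← h2] at h1
  have hCD : ∀ y : Q, ∃ c e : Q, τ c = c ∧ e ∈ D ∧ y = c * e := by
    intro y
    obtain ⟨s, -, hss, hτs⟩ := exists_sqrt hq2 hQ τ (w := y⁻¹ * τ y) (by rw [map_mul, map_inv, hττ]; group)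
    refine ⟨y * s, s⁻¹, ?_, inv_mem (show s ∈ D by rw [hmemD, hτs, mul_inv_cancel]; exact one_mem Z),
      (mul_inv_cancel_right y s).symm⟩
    rw [map_mul, hτs]
    calc τ y * s⁻¹ = y * (y⁻¹ * τ y) * s⁻¹ := by group
      _ = y * (s * s) * s⁻¹ := by rw [hss]
      _ = y * s := by group
  have hcomCD : ∀ c e : Q, τ c = c → e ∈ D → c * e = e * c := by
    intro c e hc he
    refine commutatorElement_eq_one_iff_mul_comm.1 (eq_one_of_mul_self hq2 hQ ?_)
    have h1 := hτZ _ (hcomm c e)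
    rw [map_commutatorElement, hc] at h1
    have h2 : ⁅c, τ e⁆ = ⁅c, e⁆⁻¹ := by
      obtain ⟨z, hz, hze⟩ : ∃ z ∈ Z, τ e = e⁻¹ * z := ⟨e * τ e, he, by rw [inv_mul_cancel_left]⟩
      have hzc := Subgroup.mem_center_iff.1 hz
      have hw := Subgroup.mem_center_iff.1 (hcomm c e)
      rw [hze]
      calc ⁅c, e⁻¹ * z⁆ = c * e⁻¹ * (z * c⁻¹) * z⁻¹ * e := by rw [commutatorElement_def]; group
        _ = c * e⁻¹ * (c⁻¹ * z) * z⁻¹ * e := by rw [hzc c⁻¹]
        _ = c * e⁻¹ * c⁻¹ * e := by group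
        _ = e⁻¹ * (⁅c, e⁆⁻¹ * e) := by rw [commutatorElement_def]; group
        _ = ⁅c, e⁆⁻¹ := by
          rw [← Subgroup.mem_center_iff.1 (inv_mem (hcomm c e)) e, inv_mul_cancel_left]
    calc ⁅c, e⁆ * ⁅c, e⁆ = ⁅c, τ e⁆ * ⁅c, e⁆ := by rw [h1]
      _ = 1 := by rw [h2, inv_mul_cancel]
  have hZρ : ∀ z ∈ Z, ∀ y, ρ z * ρ y = ρ y * ρ z := fun z hz y => by
    rw [← map_mul, ← map_mul, Subgroup.mem_center_iff.1 hz y]
  obtain ⟨i, hin, W, hW0, hWQ, hWT, hWfpf, hWscal, hWirr⟩ :=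
    exists_block Nat.prime_two ρ σ T hσ hT hTρ hfpf hirr Z hZσ hZρ
  obtain ⟨m, rfl⟩ : ∃ m, n = i + m := ⟨n - i, by omega⟩
  -- some translate of the commutator moves the block
  obtain ⟨l, hl⟩ : ∃ l : ℕ, ¬ ∀ w ∈ W, ρ ((σ ^ l) ⁅d, d'⁆) w = w := by
    by_contra! hall
    exact hne (translates_faithful ρ σ T (pow_pos Nat.two_pos _) hσ hTρ hirr W hW0 hWQ hall)
  have hlD : ∀ e, e * τ e ∈ Z → (σ ^ l) e ∈ D := fun e he => pow_apply_mem hDσ l ((hmemD e).2 he)
  haveI : Nontrivial W := Submodule.nontrivial_iff_ne_bot.2 hW0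
  let ρW := subRep ρ W hWQ
  let TW : Module.End k W := (T ^ 2 ^ i).restrict hWT
  set σ₀ := σ ^ 2 ^ i with hσ₀
  have hjm : 2 ^ i * 2 ^ (m + 1) = 2 ^ (i + m + 1) := by rw [← pow_add, add_assoc]
  have hσ₀1 : σ₀ ^ 2 ^ (m + 1) = 1 := by rw [hσ₀, ← pow_mul, hjm, hσ]
  have hτ0 : σ₀ ^ 2 ^ m = τ := by rw [hσ₀, hτdef, ← pow_mul, ← pow_add]
  have hTW : TW ^ 2 ^ (m + 1) = 1 := LinearMap.ext fun w => Subtype.ext (by
    rw [restrict_pow, ← pow_mul, hjm, hT]; rfl)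
  have hTρW : ∀ y, TW * ρW y = ρW (σ₀ y) * TW := fun y => LinearMap.ext fun w => Subtype.ext (by
    exact LinearMap.congr_fun (pow_semiconj hTρ (2 ^ i) y) (w : V))
  have hfpfW : ∀ w : W, TW w = w → w = 0 := fun w h =>
    Subtype.ext (hWfpf w w.2 (congrArg Subtype.val h))
  have hirrW : ∀ U : Submodule k W, (∀ y, ∀ v ∈ U, ρW y v ∈ U) → (∀ v ∈ U, TW v ∈ U) → U = ⊥ ∨ U = ⊤ := by
    intro U h1 h2'
    rcases hWirr (U.map W.subtype) (Submodule.map_subtype_le W U)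
      (by rintro y _ ⟨u, hu, rfl⟩; exact ⟨ρW y u, h1 y u hu, rfl⟩)
      (by rintro _ ⟨u, hu, rfl⟩; exact ⟨TW u, h2' u hu, rfl⟩) with h | h
    · left
      exact Submodule.map_injective_of_injective W.injective_subtype (by rw [h, Submodule.map_bot])
    · right
      exact Submodule.map_injective_of_injective W.injective_subtype (by rw [h, Submodule.map_subtype_top])
  have hWscal' : ∀ z ∈ Z, ∃ c : k, ρW z = c • (1 : Module.End k W) := fun z hz => by
    obtain ⟨c, hc⟩ := hWscal z hz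
    exact ⟨c, LinearMap.ext fun w => Subtype.ext (hc w w.2)⟩
  -- a block for the inverted elements
  obtain ⟨W₀, ⟨hW₀0, hW₀D, hW₀T⟩, hW₀min⟩ := exists_minimal_of_wellFoundedLT
    (fun U : Submodule k W => U ≠ ⊥ ∧ (∀ y : D, ∀ v ∈ U, ρW y v ∈ U) ∧ ∀ v ∈ U, TW v ∈ U)
    ⟨⊤, top_ne_bot, fun _ _ _ => trivial, fun _ _ => trivial⟩
  haveI : Nontrivial W₀ := Submodule.nontrivial_iff_ne_bot.2 hW₀0
  let ρ₀ : D →* Module.End k W₀ := subRep (ρW.comp D.subtype) W₀ hW₀D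
  let T₀ : Module.End k W₀ := TW.restrict hW₀T
  have hDσ₀ : ∀ y ∈ D, σ₀ y ∈ D := fun y hy => pow_apply_mem hDσ _ hy
  let σD := subAut σ₀ D hDσ₀
  have hT₀1 : T₀ ^ 2 ^ (m + 1) = 1 := LinearMap.ext fun w => Subtype.ext (by rw [restrict_pow, hTW]; rfl)
  have hT₀ρ : ∀ y, T₀ * ρ₀ y = ρ₀ (σD y) * T₀ := fun y => LinearMap.ext fun w => Subtype.ext (by
    exact LinearMap.congr_fun (hTρW (y : Q)) (w : W))
  have hfpf₀ : ∀ w : W₀, T₀ w = w → w = 0 := fun w h => Subtype.ext (hfpfW _ (congrArg Subtype.val h))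
  have hirr₀ : ∀ U : Submodule k W₀, (∀ y, ∀ v ∈ U, ρ₀ y v ∈ U) → (∀ v ∈ U, T₀ v ∈ U) → U = ⊥ ∨ U = ⊤ := by
    intro U h1 h2'
    rcases eq_or_ne U ⊥ with h | h
    · exact Or.inl h
    right
    have hle := hW₀min (y := U.map W₀.subtype)
      ⟨fun hb => h (Submodule.map_injective_of_injective W₀.injective_subtype (by rw [hb, Submodule.map_bot])),
        by rintro y _ ⟨u, hu, rfl⟩; exact ⟨ρ₀ y u, h1 y u hu, rfl⟩,
        by rintro _ ⟨u, hu, rfl⟩; exact ⟨T₀ u, h2' u hu, rfl⟩⟩ (Submodule.map_subtype_le _ _)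
    refine Submodule.map_injective_of_injective W₀.injective_subtype ?_
    rw [Submodule.map_subtype_top]
    exact le_antisymm (Submodule.map_subtype_le _ _) hle
  obtain ⟨c, hc⟩ := hWscal' _ (pow_apply_mem hZσ l (hcomm d d'))
  obtain ⟨R₀, -, -, -, -, hindex, hQirr, hRtop, hspec⟩ := index_block (p := 2) Nat.prime_two
    (by exact_mod_cast h2) hqk (hQ.to_subgroup D) ρ₀ σD T₀
    (MulEquiv.ext fun y => Subtype.ext (by rw [subAut_pow_apply, hσ₀1]; rfl)) hT₀1 hT₀ρ hfpf₀ hirr₀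
    (Z.subgroupOf D) (fun y hy => pow_apply_mem hZσ _ hy)
    (fun y hy => by
      obtain ⟨c, hc⟩ := hWscal' _ hy
      exact ⟨c, LinearMap.ext fun w => Subtype.ext (LinearMap.congr_fun hc (w : W))⟩)
    (fun a b => by
      show ((⁅a, b⁆ : D) : Q) ∈ Z
      exact hcomm (a : Q) (b : Q))
    (fun y hy => by
      rw [Subgroup.mem_subgroupOf, Subgroup.coe_mul, Subgroup.coe_inv, subAut_pow_apply, hτ0] at hy
      show (y : Q) ∈ Z
      have hy2 := (hmemD _).1 y.2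
      rw [← QuotientGroup.eq_one_iff] at hy hy2 ⊢
      rw [QuotientGroup.mk_mul, QuotientGroup.mk_inv, inv_mul_eq_one] at hy
      rw [QuotientGroup.mk_mul, ← hy, ← QuotientGroup.mk_mul, QuotientGroup.eq_one_iff] at hy2
      obtain ⟨a, ha⟩ := hQ.to_quotient Z (y : Q ⧸ Z)
      exact eq_one_of_mul_self hq2 (hQ.to_quotient Z) ((QuotientGroup.eq_one_iff _).2 hy2))
    (fun hall => hl fun w hw => by
      have h1 : ρ₀ ⟨(σ ^ l) d, hlD d hd⟩ * ρ₀ ⟨(σ ^ l) d', hlD d' hd'⟩ =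
          ρ₀ ⟨(σ ^ l) d', hlD d' hd'⟩ * ρ₀ ⟨(σ ^ l) d, hlD d hd⟩ := hall _ _
      have h3 : ρ₀ ⁅(⟨(σ ^ l) d, hlD d hd⟩ : D), ⟨(σ ^ l) d', hlD d' hd'⟩⁆ = 1 := by
        rw [commutatorElement_def, map_mul, map_mul, map_mul, h1, mul_assoc (ρ₀ ⟨(σ ^ l) d', hlD d' hd'⟩),
          ← map_mul, mul_inv_cancel, map_one, mul_one, ← map_mul, mul_inv_cancel, map_one]
      obtain ⟨v, hv⟩ := exists_ne (0 : W₀)
      have h4 : ρW ((σ ^ l) ⁅d, d'⁆) (v : W) = (v : W) := by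
        rw [map_commutatorElement]
        exact congrArg Subtype.val (LinearMap.congr_fun h3 v)
      rw [hc, LinearMap.smul_apply, Module.End.one_apply] at h4
      have hc1 : c = 1 := by
        by_contra hne1
        refine hv (Subtype.ext ((smul_eq_zero.1 (?_ : (c - 1) • (v : W) = 0)).resolve_left (sub_ne_zero.2 hne1)))
        rw [sub_smul, one_smul, h4, sub_self]
      have h5 := congrArg Subtype.val (LinearMap.congr_fun hc ⟨w, hw⟩)
      rw [hc1, one_smul] at h5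
      exact h5)
  obtain ⟨m, rfl⟩ : ∃ m', m = m' + 1 := by
    rcases Nat.eq_zero_or_pos m with rfl | h
    · exact absurd (Subgroup.index_eq_one.1 (by rw [hindex]; norm_num)) hRtop
    · exact ⟨m - 1, by omega⟩
  -- the fixed elements are fixed by `σ₀` on the block
  have hk2 : ((2 ^ (m + 1 + 1) : ℕ) : k) ≠ 0 := by
    push_cast
    exact pow_ne_zero _ h2
  have hfixW : ∀ y : Q, τ y = y → ρW (σ₀ y) = ρW y := by
    have hcomf : ∀ y : Q, τ y = y → ∀ w ∈ W₀, TW (ρW y w) = ρW y (TW w) := by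
      intro y hy w hw
      have h1 := hom_commutes ρ₀ (ρW.comp D.subtype) hQirr σD T₀ TW hk2
        (MulEquiv.ext fun z => Subtype.ext (by rw [subAut_pow_apply, hσ₀1]; rfl)) hT₀1 hTW hT₀ρ
        (fun z => hTρW (z : Q)) hspec hfpfW ((ρW y).comp W₀.subtype) (fun z => LinearMap.ext fun v => by
          show ρW y (ρW (z : Q) (v : W)) = ρW (z : Q) (ρW y (v : W))
          rw [← Module.End.mul_apply, ← map_mul, hcomCD y z hy z.2, map_mul, Module.End.mul_apply])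
      exact (LinearMap.congr_fun h1 ⟨w, hw⟩).symm
    have hbase : ∀ y : Q, τ y = y → ∀ w ∈ W₀, ρW (σ₀ y) w = ρW y w := by
      intro y hy w hw
      have hh : 1 ≤ 2 ^ (m + 1 + 1) := pow_pos Nat.two_pos _
      set w' := (TW ^ (2 ^ (m + 1 + 1) - 1)) w with hw'
      have hmem : w' ∈ W₀ := by
        rw [hw']
        induction (2 ^ (m + 1 + 1) - 1) with
        | zero => simpa using hw
        | succ j IH => rw [pow_succ', Module.End.mul_apply]; exact hW₀T _ IH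
      have hTw : TW w' = w := by
        rw [hw', ← Module.End.mul_apply, ← pow_succ', Nat.sub_add_cancel hh, hTW, Module.End.one_apply]
      rw [← hTw, ← Module.End.mul_apply, ← hTρW, Module.End.mul_apply, hcomf y hy w' hmem]
    intro y hy
    let U : Submodule k W := ⨆ c : {c : Q // τ c = c}, W₀.map (ρW c)
    have hUinc : ∀ c : Q, τ c = c → ∀ w ∈ W₀, ρW c w ∈ U := fun c hc w hw =>
      le_iSup (fun c : {c : Q // τ c = c} => W₀.map (ρW c)) ⟨c, hc⟩ ⟨w, hw, rfl⟩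
    have hU : U = ⊤ := by
      refine (hirrW U ?_ ?_).resolve_left fun hb => hW₀0 ?_
      · intro z
        suffices U ≤ U.comap (ρW z) from fun v hv => this hv
        refine iSup_le fun c => ?_
        rintro _ ⟨w, hw, rfl⟩
        show ρW z (ρW (c : Q) w) ∈ U
        obtain ⟨c', e, hc', he, rfl⟩ := hCD z
        rw [← Module.End.mul_apply, ← map_mul,
          show c' * e * (c : Q) = c' * c * e by rw [mul_assoc, ← hcomCD c e c.2 he, mul_assoc],
          map_mul, Module.End.mul_apply]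
        exact hUinc _ (by rw [map_mul, hc', c.2]) _ (hW₀D ⟨e, he⟩ w hw)
      · suffices U ≤ U.comap TW from fun v hv => this hv
        refine iSup_le fun c => ?_
        rintro _ ⟨w, hw, rfl⟩
        show TW (ρW (c : Q) w) ∈ U
        rw [hcomf c c.2 w hw]
        exact hUinc _ c.2 _ (hW₀T w hw)
      · rw [eq_bot_iff]
        intro w hw
        have h1 := hUinc 1 (map_one τ) w hw
        rw [map_one, Module.End.one_apply, hb] at h1
        exact h1
    refine LinearMap.ext fun v => ?_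
    suffices U ≤ LinearMap.ker (ρW (σ₀ y) - ρW y) from
      sub_eq_zero.1 (LinearMap.mem_ker.1 (this (hU ▸ Submodule.mem_top (x := v))))
    refine iSup_le fun c => ?_
    rintro _ ⟨w, hw, rfl⟩
    rw [LinearMap.mem_ker, LinearMap.sub_apply, sub_eq_zero]
    calc ρW (σ₀ y) (ρW (c : Q) w) = ρW (σ₀ y) (ρW (σ₀ c) w) := by rw [hbase c c.2 w hw]
      _ = ρW (σ₀ (y * c)) w := by rw [← Module.End.mul_apply, ← map_mul, ← map_mul]
      _ = ρW (y * c) w := hbase _ (by rw [map_mul, hy, c.2]) w hw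
      _ = ρW y (ρW (c : Q) w) := by rw [map_mul, Module.End.mul_apply]
  have hfixl : ∀ (j : ℕ) (y : Q), τ y = y → ρW ((σ₀ ^ j) y) = ρW y := by
    intro j
    induction j with
    | zero => intro y _; rfl
    | succ j IH =>
      intro y hy
      have hyj : τ ((σ₀ ^ j) y) = (σ₀ ^ j) y := by rw [hσ₀, ← pow_mul, hστ, hy]
      rw [pow_succ', MulAut.mul_apply, hfixW _ hyj, IH y hy]
  have hkill : ρ (x⁻¹ * (σ ^ 2 ^ (i + (m + 1) - 1)) x) = 1 := by
    refine translates_faithful ρ σ T (pow_pos Nat.two_pos _) hσ hTρ hirr W hW0 hWQ fun l' w hw => ?_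
    have h1 : ρW ((σ ^ l') ((σ ^ 2 ^ (i + (m + 1) - 1)) x)) = ρW ((σ ^ l') x) := by
      rw [show i + (m + 1) - 1 = i + m by omega, ← MulAut.mul_apply, pow_mul_comm, MulAut.mul_apply, pow_add,
        pow_mul, ← hσ₀]
      exact hfixl _ _ (by rw [hστ, hx])
    have h3 : ρW ((σ ^ l') (x⁻¹ * (σ ^ 2 ^ (i + (m + 1) - 1)) x)) = 1 := by
      rw [map_mul (σ ^ l'), map_inv, map_mul ρW, h1, ← map_mul, inv_mul_cancel, map_one]
    exact congrArg Subtype.val (LinearMap.congr_fun h3 ⟨w, hw⟩)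
  calc ρ ((σ ^ 2 ^ (i + (m + 1) - 1)) x) = ρ (x * (x⁻¹ * (σ ^ 2 ^ (i + (m + 1) - 1)) x)) := by
        rw [mul_inv_cancel_left]
    _ = ρ x := by rw [map_mul, hkill, mul_one]

end CfsgLib.GrossTwo
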