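import Cfsg.Agent.GrossTwo.CoreTwo
import Cfsg.Agent.GrossTwo.Separate
import Cfsg.Agent.HallHigmanB.Field

/-!
Automorphism groups of elementary abelian groups as linear groups, and the global form of the separation lemma.
-/

set_option autoImplicit false
set_option linter.style.haveILetI false
set_option linter.unusedSectionVars false

namespace CfsgLib.GrossTwo

open CfsgLib.ShultGross
open scoped commutatorElement

universe u v

/-- An automorphism of an elementary abelian group as a linear map. -/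
noncomputable def autEnd (r : ℕ) (M : Type*) [CommGroup M] [Module (ZMod r) (Additive M)] :
    MulAut M →* Module.End (ZMod r) (Additive M) where
  toFun f := (MonoidHom.toAdditive f.toMonoidHom).toZModLinearMap r
  map_one' := LinearMap.ext fun _ => rfl
  map_mul' _ _ := LinearMap.ext fun _ => rfl

theorem autEnd_apply (r : ℕ) (M : Type*) [CommGroup M] [Module (ZMod r) (Additive M)] (f : MulAut M)
    (v : Additive M) : Additive.toMul (autEnd r M f v) = f (Additive.toMul v) := rfl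

theorem autEnd_injective (r : ℕ) (M : Type*) [CommGroup M] [Module (ZMod r) (Additive M)] :
    Function.Injective (autEnd r M) := fun f g h => MulEquiv.ext fun x => by
  have h1 := congrArg Additive.toMul (LinearMap.congr_fun h (Additive.ofMul x))
  exact h1

/-- A faithful linear model, over an algebraically closed field, of the automorphisms of an elementary abelian
group. -/
theorem exists_model {s : ℕ} [Fact s.Prime] (M : Type*) [CommGroup M] [Finite M] (hexp : ∀ x : M, x ^ s = 1) :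
    ∃ (d : ℕ) (Φ : MulAut M →* Module.End (AlgebraicClosure (ZMod s)) (Fin d → AlgebraicClosure (ZMod s))),
      Function.Injective Φ ∧
      (∀ f : MulAut M, (∀ v, f v = v → v = 1) → ∀ w, Φ f w = w → w = 0) ∧
      ∀ f g : MulAut M, (∀ v, f v = v → g v = v) → (∀ v, f (f v) = v) → (Φ g - 1) * (Φ f + 1) = 0 := by
  classical
  haveI inst : Module (ZMod s) (Additive M) := AddCommGroup.zmodModule (n := s) (G := Additive M) fun a => by
    rw [← ofMul_toMul a, ← ofMul_pow, hexp]; rfl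
  rcases subsingleton_or_nontrivial M with hsub | hnt
  · refine ⟨0, 1, fun f g _ => MulEquiv.ext fun x => Subsingleton.elim _ _, fun f _ w _ => Subsingleton.elim _ _,
      fun f g _ _ => LinearMap.ext fun w => Subsingleton.elim _ _⟩
  haveI : Finite (Additive M) := Finite.of_equiv _ Additive.ofMul
  haveI : FiniteDimensional (ZMod s) (Additive M) := Module.Finite.of_finite
  obtain ⟨φ, hφ⟩ := HallHigmanB.exists_baseChange (F := ZMod s) (V := Additive M)
  refine ⟨_, φ.toMonoidHom.comp (autEnd s M), hφ.comp (autEnd_injective s M), fun f hf => ?_,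
    fun f g hfg hff => ?_⟩
  · intro w hw
    have hu : IsUnit (autEnd s M f - 1) := by
      rw [LinearMap.isUnit_iff_ker_eq_bot, eq_bot_iff]
      intro v hv
      rw [LinearMap.mem_ker, LinearMap.sub_apply, Module.End.one_apply, sub_eq_zero] at hv
      exact (Submodule.mem_bot _).2 (Additive.toMul.injective (hf _ (congrArg Additive.toMul hv)))
    have h1 : IsUnit (φ (autEnd s M f) - 1) := by rw [← map_one φ, ← map_sub]; exact hu.map φ
    obtain ⟨u, hu'⟩ := h1
    have h2 : (↑u : Module.End (AlgebraicClosure (ZMod s)) _) w = 0 := by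
      rw [hu', LinearMap.sub_apply, Module.End.one_apply, sub_eq_zero]
      exact hw
    have h3 := congrArg (↑u⁻¹ : Module.End (AlgebraicClosure (ZMod s)) _) h2
    rwa [← Module.End.mul_apply, Units.inv_mul, Module.End.one_apply, map_zero] at h3
  · show (φ (autEnd s M g) - 1) * (φ (autEnd s M f) + 1) = 0
    rw [← map_one φ, ← map_sub, ← map_add, ← map_mul, show (autEnd s M g - 1) * (autEnd s M f + 1) = 0 from ?_,
      map_zero]
    refine LinearMap.ext fun v => ?_
    rw [Module.End.mul_apply, LinearMap.add_apply, Module.End.one_apply, LinearMap.sub_apply,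
      Module.End.one_apply, LinearMap.zero_apply, sub_eq_zero]
    refine Additive.toMul.injective ?_
    show g (Additive.toMul (autEnd s M f v + v)) = Additive.toMul (autEnd s M f v + v)
    refine hfg _ ?_
    rw [toMul_add, autEnd_apply, map_mul, hff, mul_comm]

variable {k : Type*} [Field k] [IsAlgClosed k] {n q : ℕ} [Fact q.Prime]

theorem prod_eq_zero_aux (hq2 : q ≠ 2) (h2 : (2 : k) ≠ 0) (hqk : (q : k) ≠ 0) {Q : Type u} [Group Q] [Finite Q]
    (hQ : IsPGroup q Q) (σ : MulAut Q) (hσ : σ ^ 2 ^ (n + 1) = 1)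
    (hcomm : ∀ x y : Q, ⁅x, y⁆ ∈ Subgroup.center Q) (hτZ : ∀ z ∈ Subgroup.center Q, (σ ^ 2 ^ n) z = z)
    {d d' : Q} (hd : d * (σ ^ 2 ^ n) d ∈ Subgroup.center Q) (hd' : d' * (σ ^ 2 ^ n) d' ∈ Subgroup.center Q)
    {x : Q} (hx : (σ ^ 2 ^ n) x = x) (y : Q) (N : ℕ) :
    ∀ (V : Type v) [AddCommGroup V] [Module k V] [FiniteDimensional k V], Module.finrank k V = N →
      ∀ (ρ : Q →* Module.End k V) (T : Module.End k V), T ^ 2 ^ (n + 1) = 1 →
      (∀ a, T * ρ a = ρ (σ a) * T) → (∀ v, T v = v → v = 0) →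
      (ρ ⁅x⁻¹ * (σ ^ 2 ^ (n - 1)) x, y⁆ - 1) * (ρ ⁅d, d'⁆ - 1) = 0 := by
  induction N using Nat.strong_induction_on with
  | _ N ih =>
  intro V _ _ _ hN ρ T hT hTρ hfpf
  classical
  subst hN
  rcases subsingleton_or_nontrivial V with hsV | hnV
  · exact LinearMap.ext fun v => Subsingleton.elim _ _
  by_cases hred : ∃ W : Submodule k V, W ≠ ⊥ ∧ W ≠ ⊤ ∧ (∀ x, ∀ v ∈ W, ρ x v ∈ W) ∧ ∀ v ∈ W, T v ∈ W
  · obtain ⟨W, hW0, hW1, hWQ, hWT⟩ := hred
    have hd1 : Module.finrank k W < Module.finrank k V := Submodule.finrank_lt hW1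
    have hd2 : Module.finrank k (V ⧸ W) < Module.finrank k V := by
      have h1 := W.finrank_quotient_add_finrank
      have h2 := Submodule.one_le_finrank_iff.2 hW0
      omega
    have hA := ih _ hd1 W rfl (subRep ρ W hWQ) (T.restrict hWT)
      (LinearMap.ext fun w => Subtype.ext (by rw [restrict_pow, hT]; rfl))
      (fun a => LinearMap.ext fun w => Subtype.ext (by exact LinearMap.congr_fun (hTρ a) (w : V)))
      (fun w hw => Subtype.ext (hfpf _ (congrArg Subtype.val hw)))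
    have hB := ih _ hd2 (V ⧸ W) rfl (quotRep ρ W hWQ) (W.mapQ W T hWT)
      (Submodule.linearMap_qext _ (LinearMap.ext fun v => by
        rw [LinearMap.comp_apply, LinearMap.comp_apply, Submodule.mkQ_apply, mapQ_pow_mk, hT]
        rfl))
      (fun a => Submodule.linearMap_qext _ (LinearMap.ext fun v => by
        show Submodule.Quotient.mk ((T * ρ a) v) = Submodule.Quotient.mk ((ρ (σ a) * T) v)
        rw [hTρ]))
      (fun a ha => quotient_fixed_eq_zero W T hWT hfpf a ha)
    obtain ⟨a, ha⟩ := hQ ⁅x⁻¹ * (σ ^ 2 ^ (n - 1)) x, y⁆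
    obtain ⟨b, hb⟩ := hQ ⁅d, d'⁆
    refine mul_eq_zero_of_sq (a := a) (b := b) hqk _ _ ?_ (by rw [← map_pow, ha, map_one])
      (by rw [← map_pow, hb, map_one]) ?_
    · show ρ _ * ρ _ = ρ _ * ρ _
      rw [← map_mul, ← map_mul, Subgroup.mem_center_iff.1 (hcomm d d') _]
    · refine LinearMap.ext fun v => ?_
      have h1 : ((ρ ⁅x⁻¹ * (σ ^ 2 ^ (n - 1)) x, y⁆ - 1) * (ρ ⁅d, d'⁆ - 1)) v ∈ W := by
        rw [← Submodule.Quotient.mk_eq_zero W]
        have h := LinearMap.congr_fun hB (Submodule.Quotient.mk v)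
        simpa [quotRep] using h
      set w := ((ρ ⁅x⁻¹ * (σ ^ 2 ^ (n - 1)) x, y⁆ - 1) * (ρ ⁅d, d'⁆ - 1)) v with hw
      rw [Module.End.mul_apply, ← hw]
      have h := congrArg Subtype.val (LinearMap.congr_fun hA ⟨w, h1⟩)
      simpa using h
  push Not at hred
  have hirr : ∀ U : Submodule k V, (∀ x, ∀ v ∈ U, ρ x v ∈ U) → (∀ v ∈ U, T v ∈ U) → U = ⊥ ∨ U = ⊤ := by
    intro U h1 h2'
    by_contra! h
    obtain ⟨v, hv, hv'⟩ := hred U h.1 h.2 h1
    exact hv' (h2' v hv)
  by_cases hne : ρ ⁅d, d'⁆ = 1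
  · rw [hne, sub_self, mul_zero]
  have h := killed hq2 h2 hqk hQ ρ σ T hσ hT hTρ hfpf hirr hcomm hτZ hd hd' hne hx
  set z := x⁻¹ * (σ ^ 2 ^ (n - 1)) x with hz
  have hz1 : ρ z = 1 := by rw [hz, map_mul, h, ← map_mul, inv_mul_cancel, map_one]
  have h3 : ρ z⁻¹ = 1 := by
    have e : ρ z⁻¹ * ρ z = 1 := by rw [← map_mul, inv_mul_cancel, map_one]
    rwa [hz1, mul_one] at e
  rw [commutatorElement_def, map_mul, map_mul, map_mul, hz1, h3, one_mul, mul_one, ← map_mul, mul_inv_cancel,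
    map_one, sub_self, zero_mul]

theorem prod_eq_zero (hq2 : q ≠ 2) (h2 : (2 : k) ≠ 0) (hqk : (q : k) ≠ 0) {Q : Type u} [Group Q] [Finite Q]
    (hQ : IsPGroup q Q) {V : Type v} [AddCommGroup V] [Module k V] [FiniteDimensional k V]
    (ρ : Q →* Module.End k V) (σ : MulAut Q) (hσ : σ ^ 2 ^ (n + 1) = 1) (T : Module.End k V)
    (hT : T ^ 2 ^ (n + 1) = 1) (hTρ : ∀ a, T * ρ a = ρ (σ a) * T) (hfpf : ∀ v, T v = v → v = 0)
    (hcomm : ∀ x y : Q, ⁅x, y⁆ ∈ Subgroup.center Q) (hτZ : ∀ z ∈ Subgroup.center Q, (σ ^ 2 ^ n) z = z)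
    {d d' : Q} (hd : d * (σ ^ 2 ^ n) d ∈ Subgroup.center Q) (hd' : d' * (σ ^ 2 ^ n) d' ∈ Subgroup.center Q)
    {x : Q} (hx : (σ ^ 2 ^ n) x = x) (y : Q) :
    (ρ ⁅x⁻¹ * (σ ^ 2 ^ (n - 1)) x, y⁆ - 1) * (ρ ⁅d, d'⁆ - 1) = 0 :=
  prod_eq_zero_aux hq2 h2 hqk hQ σ hσ hcomm hτZ hd hd' hx y _ V rfl ρ T hT hTρ hfpf

end CfsgLib.GrossTwo
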