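import Cfsg.Agent.GrossTwo.Outer
import Cfsg.Agent.S3794

/-!
A solvable group with a fixed point free automorphism of order `2 ^ n`, `n ≥ 2`, has Fitting length at most
`2 * n - 2`.
-/

set_option autoImplicit false
set_option linter.style.haveILetI false
set_option linter.unusedSectionVars false

namespace CfsgLib.GrossTwo

open CfsgLib.ShultGross

universe u

/-- `G` has a normal series of length `L` with nilpotent factors. -/
def HasChain (G : Type*) [Group G] (L : ℕ) : Prop :=
  ∃ F : Fin (L + 1) → Subgroup G, F 0 = ⊥ ∧ F (Fin.last L) = ⊤ ∧ Monotone F ∧ (∀ i, (F i).Normal) ∧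
    ∀ i : Fin L, ∃ k : ℕ, (F i.succ).lowerCentralSeries k ≤ F i.castSucc

theorem HasChain.cons {G : Type*} [Group G] {L : ℕ} (N : Subgroup G) [N.Normal] (hN : Group.IsNilpotent N)
    (h : HasChain (G ⧸ N) L) : HasChain G (L + 1) := by
  obtain ⟨F, h0, hlast, hmono, hnorm, hstep⟩ := h
  refine ⟨Fin.cons ⊥ fun i => (F i).comap (QuotientGroup.mk' N), Fin.cons_zero .., ?_, ?_, ?_, ?_⟩
  · rw [show Fin.last (L + 1) = (Fin.last L).succ from (Fin.succ_last L).symm, Fin.cons_succ, hlast,
      Subgroup.comap_top]
  · intro i j hij
    induction i using Fin.cases with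
    | zero => rw [Fin.cons_zero]; exact bot_le
    | succ i =>
      induction j using Fin.cases with
      | zero => exact absurd hij (by simp)
      | succ j =>
        rw [Fin.cons_succ, Fin.cons_succ]
        exact Subgroup.comap_mono (hmono (Fin.succ_le_succ_iff.1 hij))
  · intro i
    induction i using Fin.cases with
    | zero => rw [Fin.cons_zero]; infer_instance
    | succ i => rw [Fin.cons_succ]; exact (hnorm i).comap _
  · intro i
    induction i using Fin.cases with
    | zero =>
      obtain ⟨k, hk⟩ := (Subgroup.isNilpotent_iff_lowerCentralSeries N).1 hN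
      refine ⟨k, ?_⟩
      rw [Fin.cons_succ, h0, MonoidHom.comap_bot, QuotientGroup.ker_mk', hk]
      exact bot_le
    | succ i =>
      obtain ⟨k, hk⟩ := hstep i
      refine ⟨k, ?_⟩
      rw [Fin.cons_succ, ← Fin.succ_castSucc, Fin.cons_succ, ← Subgroup.map_le_iff_le_comap,
        Subgroup.map_lowerCentralSeries, Subgroup.map_comap_eq_self_of_surjective (QuotientGroup.mk'_surjective N)]
      exact hk

theorem hasChain_one_of_comm {G : Type*} [Group G] (h : commutator G = ⊥) : HasChain G 1 := by
  refine ⟨Fin.cons ⊥ fun _ => ⊤, Fin.cons_zero .., ?_, ?_, ?_, ?_⟩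
  · rw [show Fin.last 1 = (Fin.last 0).succ from (Fin.succ_last 0).symm, Fin.cons_succ]
  · intro i j hij
    induction i using Fin.cases with
    | zero => rw [Fin.cons_zero]; exact bot_le
    | succ i =>
      induction j using Fin.cases with
      | zero => exact absurd hij (by simp)
      | succ j => rw [Fin.cons_succ, Fin.cons_succ]
  · intro i
    induction i using Fin.cases with
    | zero => rw [Fin.cons_zero]; infer_instance
    | succ i => rw [Fin.cons_succ]; infer_instance
  · intro i
    induction i using Fin.cases with
    | zero =>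
      refine ⟨1, ?_⟩
      rw [Fin.cons_succ, Subgroup.top_lowerCentralSeries_one, Fin.castSucc_zero, Fin.cons_zero, h]
    | succ i => exact i.elim0

theorem hasChain (m : ℕ) : ∀ (G : Type u) [Group G] [Finite G], Group.IsSolvable G → ∀ σ : MulAut G,
    σ ^ 2 ^ (m + 2) = 1 → (∀ g, σ g = g → g = 1) → HasChain G (2 * m + 2) := by
  induction m with
  | zero =>
    intro G _ _ hG σ hσ hfpf
    have h := Cfsg.Agent.S3794.result hG σ (by simpa using hσ) hfpf
    refine HasChain.cons (commutator G) h (hasChain_one_of_comm ?_)
    rw [eq_bot_iff, commutator_def (G := G ⧸ commutator G), Subgroup.commutator_le]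
    intro a _ b _
    induction a using QuotientGroup.induction_on with
    | H x =>
    induction b using QuotientGroup.induction_on with
    | H y =>
      rw [Subgroup.mem_bot, ← QuotientGroup.mk'_apply, ← QuotientGroup.mk'_apply, ← map_commutatorElement,
        QuotientGroup.mk'_apply, QuotientGroup.eq_one_iff]
      exact Subgroup.commutator_mem_commutator (Subgroup.mem_top x) (Subgroup.mem_top y)
  | succ m ih =>
    intro G _ _ hG σ hσ hfpf
    haveI := hG
    set N := Cfsg.fittingSubgroup G with hN
    haveI : N.Normal := Components.fittingSubgroup_normal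
    have hNσ : ∀ x ∈ N, σ x ∈ N := characteristic_invariant N Components.fittingSubgroup_characteristic σ
    haveI : Group.IsSolvable (G ⧸ N) :=
      Group.isSolvable_of_surjective (f := QuotientGroup.mk' N) (QuotientGroup.mk'_surjective N)
    set σN := quotAut σ N hNσ with hσN
    set M := Cfsg.fittingSubgroup (G ⧸ N) with hM
    haveI : M.Normal := Components.fittingSubgroup_normal
    have hMσ : ∀ x ∈ M, σN x ∈ M := characteristic_invariant M Components.fittingSubgroup_characteristic σN
    have hfN := quotAut_fpf σ N hNσ fun x hx => mem_of_displacement_mem σ hfpf N hNσ hx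
    have hpow : quotAut σN M hMσ ^ 2 ^ (m + 2) = 1 := by
      refine MulEquiv.ext fun a => ?_
      induction a using QuotientGroup.induction_on with
      | H b =>
        induction b using QuotientGroup.induction_on with
        | H x =>
          rw [quotAut_pow_mk, MulAut.one_apply, QuotientGroup.eq, hσN, quotAut_pow_mk, ← QuotientGroup.mk_inv,
            ← QuotientGroup.mk_mul]
          have h := inv_mem (mem_fitting_two σ hσ hfpf x)
          rwa [← QuotientGroup.mk_inv, mul_inv_rev, inv_inv] at h
    have h := ih ((G ⧸ N) ⧸ M)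
      (Group.isSolvable_of_surjective (f := QuotientGroup.mk' M) (QuotientGroup.mk'_surjective M))
      (quotAut σN M hMσ) hpow (quotAut_fpf σN M hMσ fun x hx => mem_of_displacement_mem σN hfN M hMσ hx)
    exact HasChain.cons N (Components.fittingSubgroup_isNilpotent (G := G))
      (HasChain.cons M (Components.fittingSubgroup_isNilpotent (G := G ⧸ N)) h)

theorem exists_chain {n : ℕ} (hn : 1 < n) (G : Type u) [Group G] [Finite G] (hG : Group.IsSolvable G)
    (σ : MulAut G) (hσ : σ ^ 2 ^ n = 1) (hfpf : ∀ g, σ g = g → g = 1) : HasChain G (2 * n - 2) := by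
  obtain ⟨m, rfl⟩ : ∃ m, n = m + 2 := ⟨n - 2, by omega⟩
  rw [show 2 * (m + 2) - 2 = 2 * m + 2 by omega]
  exact hasChain m G hG σ hσ hfpf

end CfsgLib.GrossTwo
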