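import Cfsg.Agent.GrossTwo.Layer
import Cfsg.Agent.ShultGross.Reduce

/-!
The involution among the powers of the automorphism acts trivially modulo the second Fitting subgroup.
-/

set_option autoImplicit false
set_option linter.style.haveILetI false
set_option linter.unusedSectionVars false
set_option maxHeartbeats 400000

namespace CfsgLib.GrossTwo

open CfsgLib.ShultGross
open CfsgLib.MaxCent (IsPElem)
open scoped IsMulCommutative

variable {G : Type*} [Group G] [Finite G]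

/-- In a layer over the Fitting subgroup, what centralises all other cores lies in the Fitting subgroup. -/
theorem inf_centralizers_le_fitting {q : ℕ} (hq : q.Prime) (M : Subgroup G) [M.Normal]
    (hM : ∀ x ∈ M, ∀ s : ℕ, s.Prime → s ≠ q → IsPElem s x → x ∈ Cfsg.fittingSubgroup G) {x : G} (hxM : x ∈ M)
    (hx : ∀ r : ℕ, r.Prime → r ≠ q → x ∈ Subgroup.centralizer (Cfsg.pCore r G : Set G)) :
    x ∈ Cfsg.fittingSubgroup G := by
  classical
  haveI := Fact.mk hq
  set C : Subgroup G := ⨅ r : {r : ℕ // r.Prime ∧ r ≠ q}, Subgroup.centralizer (Cfsg.pCore (r : ℕ) G : Set G)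
    with hC
  haveI : C.Normal := by
    refine Subgroup.normal_iInf_normal fun r => ?_
    haveI := CfsgLib.PCore.pCore_characteristic (r : ℕ) G
    exact Subgroup.normal_centralizer
  set N := M ⊓ C with hN
  haveI : N.Normal := by rw [hN]; infer_instance
  have hNnil : Group.IsNilpotent N := by
    have hZ : ∀ (y : N) (s : ℕ), s.Prime → s ≠ q → IsPElem s (y : G) → y ∈ Subgroup.center N := by
      intro y s hs hsq hy
      haveI := Fact.mk hs
      have h1 : (y : G) ∈ Cfsg.pCore s G := by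
        refine KegelWielandt.mem_pCore_of_mem_fitting (hM y y.2.1 s hs hsq hy) ?_
        obtain ⟨a, ha⟩ := hy
        obtain ⟨b, -, hb⟩ := (Nat.dvd_prime_pow hs).1 (orderOf_dvd_of_pow_eq_one ha)
        exact IsPGroup.of_card (n := b) (by rw [Nat.card_zpowers, hb])
      refine Subgroup.mem_center_iff.2 fun z => Subtype.ext ?_
      have h2 : (z : G) ∈ Subgroup.centralizer (Cfsg.pCore s G : Set G) :=
        (Subgroup.mem_iInf.1 z.2.2 ⟨s, hs, hsq⟩ : _)
      exact (Subgroup.mem_centralizer_iff.1 h2 _ h1).symm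
    have hq' : IsPGroup q (N ⧸ Subgroup.center N) := by
      intro a
      induction a using QuotientGroup.induction_on with
      | H y =>
        obtain ⟨e, m, hm, hord⟩ := Nat.exists_eq_pow_mul_and_not_dvd (orderOf_pos y).ne' q hq.ne_one
        refine ⟨e, ?_⟩
        rw [← QuotientGroup.mk_pow, QuotientGroup.eq_one_iff]
        have hzm : (y ^ q ^ e) ^ m = 1 := by rw [← pow_mul, ← hord, pow_orderOf_eq_one]
        refine CfsgLib.MaxCent.mem_of_parts fun s hs j hsj => ?_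
        rcases eq_or_ne s q with rfl | hsq
        · obtain ⟨a, ha⟩ := hsj
          have h1 : ((y ^ s ^ e) ^ j) ^ m = 1 := by rw [← pow_mul, mul_comm, pow_mul, hzm, one_pow]
          have h2 : (y ^ s ^ e) ^ j = 1 := by
            rw [← orderOf_eq_one_iff]
            exact Nat.eq_one_of_dvd_coprimes ((hs.coprime_iff_not_dvd.2 hm).pow_left a)
              (orderOf_dvd_of_pow_eq_one ha) (orderOf_dvd_of_pow_eq_one h1)
          rw [h2]; exact one_mem _
        · obtain ⟨a, ha⟩ := hsj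
          exact hZ _ s hs hsq ⟨a, by rw [← SubgroupClass.coe_pow, ha]; rfl⟩
    haveI := hq'.isNilpotent
    exact Subgroup.isNilpotent_of_ker_le_center (QuotientGroup.mk' (Subgroup.center N))
      (by rw [QuotientGroup.ker_mk'])
  exact Components.le_fittingSubgroup (inferInstance : N.Normal) hNnil
    (Subgroup.mem_inf.2 ⟨hxM, Subgroup.mem_iInf.2 fun r => hx r r.2.1 r.2.2⟩)

theorem layer_pElem {q : ℕ} (hq : q.Prime) [(Cfsg.fittingSubgroup G).Normal] :
    ∀ x ∈ (Cfsg.pCore q (G ⧸ Cfsg.fittingSubgroup G)).comap (QuotientGroup.mk' (Cfsg.fittingSubgroup G)),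
      ∀ s : ℕ, s.Prime → s ≠ q → IsPElem s x → x ∈ Cfsg.fittingSubgroup G := by
  intro x hx s hs hsq ⟨a, ha⟩
  rw [← QuotientGroup.eq_one_iff, ← orderOf_eq_one_iff]
  obtain ⟨b, hb⟩ := CfsgLib.PCore.isPGroup_pCore q (G ⧸ Cfsg.fittingSubgroup G)
    ⟨QuotientGroup.mk' (Cfsg.fittingSubgroup G) x, hx⟩
  have h1 : (x : G ⧸ Cfsg.fittingSubgroup G) ^ s ^ a = 1 := by
    rw [← QuotientGroup.mk_pow, ha, QuotientGroup.mk_one]
  have h2 : (x : G ⧸ Cfsg.fittingSubgroup G) ^ q ^ b = 1 := congrArg Subtype.val hb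
  exact Nat.eq_one_of_dvd_coprimes (((Nat.coprime_primes hs hq).2 hsq).pow a b)
    (orderOf_dvd_of_pow_eq_one h1) (orderOf_dvd_of_pow_eq_one h2)

theorem exists_invariant_sylow {p n : ℕ} (hp : p.Prime) (σ : MulAut G) (hσ : σ ^ p ^ n = 1)
    (hfpf : ∀ g, σ g = g → g = 1) (M : Subgroup G) (hMσ : ∀ x ∈ M, σ x ∈ M) (q : ℕ) [Fact q.Prime] :
    ∃ P : Sylow q M, ∀ x ∈ (P : Subgroup M).map M.subtype, σ x ∈ (P : Subgroup M).map M.subtype := by
  have hAfix : ∀ a : Subgroup.zpowers σ, ∀ x ∈ M, (a : MulAut G) x ∈ M := by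
    rintro ⟨a, ha⟩ x hx
    obtain ⟨j, rfl⟩ := (isOfFinOrder_of_finite σ).mem_powers_iff_mem_zpowers.2 ha
    exact pow_apply_mem hMσ j hx
  have hAsol : Group.IsSolvable (Subgroup.zpowers σ) := by
    haveI : IsCyclic (Subgroup.zpowers σ) := inferInstance
    letI := IsCyclic.commGroup (α := Subgroup.zpowers σ)
    infer_instance
  have hcop : (Nat.card (Subgroup.zpowers σ)).Coprime (Nat.card G) := by
    rw [Nat.card_zpowers]
    exact Nat.Coprime.coprime_dvd_left (orderOf_dvd_of_pow_eq_one hσ)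
      ((hp.coprime_iff_not_dvd.2 (not_dvd_card hp σ hσ hfpf)).pow_left _)
  obtain ⟨P, hP⟩ := FpfRankTwo.exists_invariant_sylow_le (Subgroup.zpowers σ).subtype M
    (fun a x hx => hAfix a x hx) hcop hAsol q
  exact ⟨P, fun x hx => hP ⟨σ, Subgroup.mem_zpowers σ⟩ x hx⟩

theorem sup_ker_eq {H : Type*} [Group H] (f : G →* H) (M : Subgroup G) (K : Subgroup G) (hK : f.ker = K) {q : ℕ}
    [Fact q.Prime] (P : Sylow q M) (hMq : IsPGroup q (M.map f)) :
    M ≤ (P : Subgroup M).map M.subtype ⊔ K := by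
  subst hK
  set Q := (P : Subgroup M).map M.subtype with hQdef
  rw [← Subgroup.relIndex_eq_one]
  have h1 : (Q ⊔ f.ker).relIndex M ∣ Q.relIndex M := Subgroup.relIndex_dvd_of_le_left _ le_sup_left
  have h2 : (Q ⊔ f.ker).relIndex M ∣ f.ker.relIndex M := Subgroup.relIndex_dvd_of_le_left _ le_sup_right
  have h3 : ¬ q ∣ Q.relIndex M := by
    have e : Q.relIndex M = (P : Subgroup M).index := by
      rw [hQdef, Subgroup.relIndex, Subgroup.subgroupOf, Subgroup.comap_map_eq_self_of_injective M.subtype_injective]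
    rw [e]
    exact P.not_dvd_index
  haveI : Finite (M.map f) := Finite.of_surjective _ (f.subgroupMap_surjective M)
  obtain ⟨a, ha⟩ := IsPGroup.iff_card.1 hMq
  rw [Subgroup.relIndex_ker (K := M) f, ha] at h2
  obtain ⟨b, -, hb⟩ := (Nat.dvd_prime_pow (Fact.out : q.Prime)).1 h2
  rcases Nat.eq_zero_or_pos b with rfl | hb0
  · rw [hb, pow_zero]
  · exact absurd ((hb ▸ dvd_pow_self q hb0.ne').trans h1) h3

/-- If displacements of invariant `q`-subgroups centralise the other cores, the power acts trivially modulo the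
Fitting subgroup. -/
theorem mem_fitting_of_centralizes [Group.IsSolvable G] {p n : ℕ} (hp : p.Prime) (σ : MulAut G)
    (hσ : σ ^ p ^ (n + 1) = 1) (hfpf : ∀ g, σ g = g → g = 1)
    (hcent : ∀ q r : ℕ, q.Prime → r.Prime → r ≠ q → ∀ Q : Subgroup G, IsPGroup q Q → (∀ x ∈ Q, σ x ∈ Q) →
      ∀ x ∈ Q, x⁻¹ * (σ ^ p ^ n) x ∈ Subgroup.centralizer (Cfsg.pCore r G : Set G)) (g : G) :
    g⁻¹ * (σ ^ p ^ n) g ∈ Cfsg.fittingSubgroup G := by
  classical
  have hpG := not_dvd_card hp σ hσ hfpf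
  set τ := σ ^ p ^ n with hτ
  set F := Cfsg.fittingSubgroup G with hF
  haveI hFn : F.Normal := Components.fittingSubgroup_normal
  have hFσ : ∀ x ∈ F, σ x ∈ F :=
    characteristic_invariant F Components.fittingSubgroup_characteristic σ
  haveI : Group.IsSolvable (G ⧸ F) :=
    Group.isSolvable_of_surjective (f := QuotientGroup.mk' F) (QuotientGroup.mk'_surjective F)
  set π := QuotientGroup.mk' F with hπ
  set σF := quotAut σ F hFσ with hσF
  set τF := σF ^ p ^ n with hτF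
  have hτπ : ∀ y, τF (π y) = π (τ y) := fun y => quotAut_pow_mk σ F hFσ _ y
  let S : Subgroup (G ⧸ F) := MonoidHom.eqLocus τF.toMonoidHom (MonoidHom.id _)
  have hlayer : ∀ q : ℕ, q.Prime → Cfsg.pCore q (G ⧸ F) ≤ S := by
    intro q hq
    haveI := Fact.mk hq
    set M := (Cfsg.pCore q (G ⧸ F)).comap π with hM
    haveI : (Cfsg.pCore q (G ⧸ F)).Normal :=
      haveI := CfsgLib.PCore.pCore_characteristic q (G ⧸ F)
      inferInstance
    haveI : M.Normal := by rw [hM]; infer_instance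
    have hMσ : ∀ x ∈ M, σ x ∈ M := by
      intro x hx
      show π (σ x) ∈ Cfsg.pCore q (G ⧸ F)
      rw [hπ, QuotientGroup.mk'_apply, ← quotAut_mk σ F hFσ]
      exact characteristic_invariant _ (CfsgLib.PCore.pCore_characteristic q (G ⧸ F)) σF _ hx
    obtain ⟨P, hP⟩ := exists_invariant_sylow hp σ hσ hfpf M hMσ q
    set Q : Subgroup G := (P : Subgroup M).map M.subtype with hQdef
    have hQM : Q ≤ M := Subgroup.map_subtype_le _
    have hQS : Q ≤ S.comap π := by
      intro x hx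
      show τF (π x) = π x
      rw [hτπ, hπ, QuotientGroup.mk'_apply, QuotientGroup.mk'_apply, QuotientGroup.eq]
      have h1 : x⁻¹ * τ x ∈ F := inf_centralizers_le_fitting hq M (layer_pElem hq)
        (mul_mem (inv_mem (hQM hx)) (pow_apply_mem hMσ _ (hQM hx)))
        (fun r hr hrq => hcent q r hq hr hrq Q (P.2.map _) hP x hx)
      have h2 := inv_mem h1
      rwa [mul_inv_rev, inv_inv] at h2
    have hFS : F ≤ S.comap π := by
      intro x hx
      show τF (π x) = π x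
      rw [hπ, QuotientGroup.mk'_apply, (QuotientGroup.eq_one_iff x).2 hx, map_one]
    have hMK : M ≤ Q ⊔ F := sup_ker_eq π M F (QuotientGroup.ker_mk' F) P (by
      rw [hM, Subgroup.map_comap_eq_self_of_surjective (QuotientGroup.mk'_surjective F)]
      exact CfsgLib.PCore.isPGroup_pCore q (G ⧸ F))
    intro a ha
    obtain ⟨x, rfl⟩ := QuotientGroup.mk'_surjective F a
    exact (hMK.trans (sup_le hQS hFS)) ha
  have hfit : Cfsg.fittingSubgroup (G ⧸ F) ≤ S := by
    rw [Components.fittingSubgroup_eq_iSup]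
    exact iSup_le fun q => hlayer q (Nat.prime_of_mem_primeFactors q.2)
  haveI : (Cfsg.fittingSubgroup (G ⧸ F)).Normal := Components.fittingSubgroup_normal
  set d := (π g)⁻¹ * τF (π g) with hd
  have hdC : d ∈ Cfsg.fittingSubgroup (G ⧸ F) := by
    refine Hall.centralizer_fitting_le (Subgroup.mem_centralizer_iff.2 fun f hf => ?_)
    have hff : τF f = f := hfit hf
    have h : τF (π g * f * (π g)⁻¹) = π g * f * (π g)⁻¹ :=
      hfit ((inferInstance : (Cfsg.fittingSubgroup (G ⧸ F)).Normal).conj_mem f hf (π g))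
    rw [map_mul, map_mul, map_inv, hff] at h
    rw [hd]
    calc f * ((π g)⁻¹ * τF (π g)) = (π g)⁻¹ * (π g * f * (π g)⁻¹) * τF (π g) := by group
      _ = (π g)⁻¹ * (τF (π g) * f * (τF (π g))⁻¹) * τF (π g) := by rw [h]
      _ = (π g)⁻¹ * τF (π g) * f := by group
  have hdfix : τF d = d := hfit hdC
  have hit : ∀ l : ℕ, (τF ^ l) (π g) = π g * d ^ l := by
    intro l
    induction l with
    | zero => simp
    | succ l IH =>
      rw [pow_succ', MulAut.mul_apply, IH, map_mul, map_pow, hdfix]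
      calc τF (π g) * d ^ l = π g * d * d ^ l := by rw [hd, mul_inv_cancel_left]
        _ = π g * d ^ (l + 1) := by rw [mul_assoc, ← pow_succ']
  have h1 := hit p
  rw [hτF, ← pow_mul, ← pow_succ, hσF, quotAut_pow_eq_one F hFσ hσ, MulAut.one_apply, left_eq_mul] at h1
  have hd1 : d = 1 := by
    rw [← orderOf_eq_one_iff]
    rcases (Nat.dvd_prime hp).1 (orderOf_dvd_of_pow_eq_one h1) with h | h
    · exact h
    · exact absurd ((h ▸ orderOf_dvd_natCard d).trans (Subgroup.card_quotient_dvd_card F)) hpG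
  rw [hd, hτπ, ← map_inv, ← map_mul, hπ, QuotientGroup.mk'_apply, QuotientGroup.eq_one_iff] at hd1
  exact hd1

theorem comm_centralizes_abelian {n q r s : ℕ} [Fact q.Prime] [Fact r.Prime] [Fact s.Prime]
    (hq2 : q ≠ 2) (hr2 : r ≠ 2) (hs2 : s ≠ 2) (hqr : q ≠ r) (hqs : q ≠ s) (σ : MulAut G)
    (hσ : σ ^ 2 ^ (n + 1) = 1) (hfpf : ∀ g, σ g = g → g = 1) (Q : Subgroup G) (hQq : IsPGroup q Q)
    (hQσ : ∀ x ∈ Q, σ x ∈ Q) (R : Subgroup G) (hRr : IsPGroup r R) (hRσ : ∀ x ∈ R, σ x ∈ R)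
    (hRQ : R ≤ Subgroup.normalizer (Q : Set G)) (S : Subgroup G) [S.Normal] [IsMulCommutative S]
    (hexp : ∀ x : S, x ^ s = 1) (hSσ : ∀ x ∈ S, σ x ∈ S) {x w : G} (hx : x ∈ R) (hw : w ∈ Q) :
    w⁻¹ * (x⁻¹ * (σ ^ 2 ^ n) x * w * (x⁻¹ * (σ ^ 2 ^ n) x)⁻¹) ∈ Subgroup.centralizer (S : Set G) := by
  classical
  obtain ⟨d, Φm, hΦinj, hΦfpf, -⟩ := exists_model (s := s) S hexp
  let cS : G →* MulAut S := MulAut.conjNormal
  let sS := subAut σ S hSσ
  have hrel : ∀ g, sS * cS g = cS (σ g) * sS := fun g => MulEquiv.ext fun v => Subtype.ext (by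
    show σ (g * (v : G) * g⁻¹) = σ g * σ (v : G) * (σ g)⁻¹
    rw [map_mul, map_mul, map_inv])
  let ρQ : Q →* _ := (Φm.comp cS).comp Q.subtype
  have hK : ∀ y : Q, y ∈ ρQ.ker ↔ cS (y : G) = 1 := fun y => by
    rw [MonoidHom.mem_ker]
    show Φm (cS (y : G)) = 1 ↔ _
    rw [← map_one Φm]
    exact hΦinj.eq_iff
  have hρQ : ∀ y : Q, ρQ y = Φm (cS (y : G)) := fun y => rfl
  clear_value ρQ
  let conjQ : R →* MulAut Q := (Subgroup.normalizerMonoidHom Q).comp (Subgroup.inclusion hRQ)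
  have hconjQ : ∀ (a : R) (y : Q), (conjQ a y : G) = (a : G) * (y : G) * (a : G)⁻¹ := fun a y => rfl
  have hKa : ∀ a : R, ∀ y ∈ ρQ.ker, conjQ a y ∈ ρQ.ker := fun a y hy => by
    rw [hK] at hy ⊢
    rw [hconjQ, map_mul, map_mul, map_inv, hy, mul_one, mul_inv_cancel]
  let σQ := subAut σ Q hQσ
  have hKσ : ∀ y ∈ ρQ.ker, σQ y ∈ ρQ.ker := fun y hy => by
    rw [hK] at hy ⊢
    show cS (σ (y : G)) = 1
    have h1 := hrel (y : G)
    rw [hy, mul_one] at h1
    exact mul_right_cancel (a := cS (σ (y : G))) (b := sS) (c := 1) (by rw [one_mul, ← h1])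
  let φ : R →* MulAut (Q ⧸ ρQ.ker) :=
    { toFun := fun a => quotAut (conjQ a) ρQ.ker (hKa a)
      map_one' := MulEquiv.ext fun v => by
        induction v using QuotientGroup.induction_on with
        | H y => rw [quotAut_mk, map_one]; rfl
      map_mul' := fun a b => MulEquiv.ext fun v => by
        induction v using QuotientGroup.induction_on with
        | H y => rw [quotAut_mk, MulAut.mul_apply, quotAut_mk, quotAut_mk, map_mul]; rfl }
  have hpowS : sS ^ 2 ^ (n + 1) = 1 := MulEquiv.ext fun v => Subtype.ext (by rw [subAut_pow_apply, hσ]; rfl)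
  haveI : CharP (AlgebraicClosure (ZMod s)) s :=
    charP_of_injective_algebraMap (algebraMap (ZMod s) (AlgebraicClosure (ZMod s))).injective s
  have hcast : ∀ l : ℕ, l.Prime → l ≠ s → ((l : ℕ) : AlgebraicClosure (ZMod s)) ≠ 0 := fun l hl hne h => by
    rw [CharP.cast_eq_zero_iff (AlgebraicClosure (ZMod s)) s] at h
    exact hne.symm ((Nat.prime_dvd_prime_iff_eq Fact.out hl).1 h)
  have key := acts_trivially (n := n) hq2 hr2 hqr (by exact_mod_cast hcast 2 Nat.prime_two hs2.symm)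
    (hcast q Fact.out hqs) hRr (hQq.to_quotient ρQ.ker) φ (subAut σ R hRσ) (quotAut σQ ρQ.ker hKσ)
    (MulEquiv.ext fun a => Subtype.ext (by rw [subAut_pow_apply, hσ]; rfl))
    (quotAut_pow_eq_one _ hKσ (MulEquiv.ext fun a => Subtype.ext (by rw [subAut_pow_apply, hσ]; rfl)))
    (fun a v => by
      induction v using QuotientGroup.induction_on with
      | H y =>
        show quotAut σQ ρQ.ker hKσ (quotAut (conjQ a) ρQ.ker (hKa a) y) =
          quotAut (conjQ _) ρQ.ker (hKa _) (quotAut σQ ρQ.ker hKσ y)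
        rw [quotAut_mk, quotAut_mk, quotAut_mk, quotAut_mk]
        refine congrArg _ (Subtype.ext ?_)
        show σ ((a : G) * (y : G) * (a : G)⁻¹) = σ (a : G) * σ (y : G) * (σ (a : G))⁻¹
        rw [map_mul, map_mul, map_inv])
    (fun a ha => Subtype.ext (hfpf _ (congrArg Subtype.val ha)))
    (quotAut_fpf σQ ρQ.ker hKσ fun y hy => mem_of_displacement_mem σQ
      (fun y hy => Subtype.ext (hfpf _ (congrArg Subtype.val hy))) ρQ.ker hKσ hy)
    (QuotientGroup.lift ρQ.ker ρQ le_rfl) (by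
      rw [injective_iff_map_eq_one]
      intro v
      induction v using QuotientGroup.induction_on with
      | H y =>
        intro hv
        rw [QuotientGroup.lift_mk] at hv
        exact (QuotientGroup.eq_one_iff y).2 hv) (Φm sS)
    (by rw [← map_pow, hpowS, map_one])
    (fun v => by
      induction v using QuotientGroup.induction_on with
      | H y =>
        rw [quotAut_mk, QuotientGroup.lift_mk, QuotientGroup.lift_mk, hρQ, hρQ]
        show Φm sS * Φm (cS (y : G)) = Φm (cS (σ (y : G))) * Φm sS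
        rw [← map_mul, hrel, map_mul])
    (hΦfpf sS fun v hv => Subtype.ext (hfpf _ (congrArg Subtype.val hv))) ⟨x, hx⟩
  set c : R := (⟨x, hx⟩ : R)⁻¹ * (subAut σ R hRσ ^ 2 ^ n) ⟨x, hx⟩ with hc
  have hcv : (c : G) = x⁻¹ * (σ ^ 2 ^ n) x := by
    rw [hc, Subgroup.coe_mul, subAut_pow_apply]; rfl
  have h1 : ((conjQ c ⟨w, hw⟩ : Q) : Q ⧸ ρQ.ker) = ((⟨w, hw⟩ : Q) : Q ⧸ ρQ.ker) := by
    rw [← quotAut_mk _ ρQ.ker (hKa c)]
    exact DFunLike.congr_fun key _
  rw [eq_comm, QuotientGroup.eq, hK] at h1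
  rw [Subgroup.mem_centralizer_iff]
  intro v hv
  have h2 := congrArg Subtype.val (DFunLike.congr_fun h1 (⟨v, hv⟩ : S))
  rw [MulAut.conjNormal_apply, MulAut.one_apply, Subgroup.coe_mul, Subgroup.coe_inv, hconjQ, hcv] at h2
  exact (mul_inv_eq_iff_eq_mul.1 h2).symm

theorem comm_centralizes_pgroup {n q r s : ℕ} [Fact q.Prime] [Fact r.Prime] [Fact s.Prime]
    (hq2 : q ≠ 2) (hr2 : r ≠ 2) (hs2 : s ≠ 2) (hqr : q ≠ r) (hqs : q ≠ s) (σ : MulAut G)
    (hσ : σ ^ 2 ^ (n + 1) = 1) (hfpf : ∀ g, σ g = g → g = 1) (Q : Subgroup G) (hQq : IsPGroup q Q)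
    (hQσ : ∀ x ∈ Q, σ x ∈ Q) (R : Subgroup G) (hRr : IsPGroup r R) (hRσ : ∀ x ∈ R, σ x ∈ R)
    (hRQ : R ≤ Subgroup.normalizer (Q : Set G)) (S : Subgroup G) [S.Normal] (hSs : IsPGroup s S)
    (hSσ : ∀ x ∈ S, σ x ∈ S) {x w : G} (hx : x ∈ R) (hw : w ∈ Q) :
    w⁻¹ * (x⁻¹ * (σ ^ 2 ^ n) x * w * (x⁻¹ * (σ ^ 2 ^ n) x)⁻¹) ∈ Subgroup.centralizer (S : Set G) := by
  set Φ : Subgroup G := (frattini S).map S.subtype with hΦ
  haveI : Φ.Normal := by rw [hΦ]; infer_instance
  have hΦσ : ∀ y ∈ Φ, σ y ∈ Φ := by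
    rintro _ ⟨⟨y, hy⟩, hyf, rfl⟩
    exact ⟨subAut σ S hSσ ⟨y, hy⟩, characteristic_invariant _ inferInstance (subAut σ S hSσ) _ hyf, rfl⟩
  have hπ := QuotientGroup.mk'_surjective Φ
  set π := QuotientGroup.mk' Φ with hπdef
  haveI : (S.map π).Normal := Subgroup.Normal.map inferInstance π hπ
  haveI : IsMulCommutative (S.map π) := by
    constructor; constructor
    rintro ⟨_, a, ha, rfl⟩ ⟨_, b, hb, rfl⟩
    refine Subtype.ext ?_
    show π a * π b = π b * π a
    rw [← map_mul, ← map_mul, hπdef, QuotientGroup.mk'_apply, QuotientGroup.mk'_apply, QuotientGroup.eq]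
    have h := CoprimeAction.commutator_le_frattini' hSs
      (Subgroup.commutator_mem_commutator (Subgroup.mem_top (⟨b, hb⟩⁻¹ : S)) (Subgroup.mem_top (⟨a, ha⟩⁻¹ : S)))
    refine ⟨_, h, ?_⟩
    simp [commutatorElement_def, mul_assoc]
  have hexp : ∀ y : S.map π, y ^ s = 1 := by
    rintro ⟨_, a, ha, rfl⟩
    refine Subtype.ext ?_
    show π a ^ s = 1
    rw [← map_pow, hπdef, QuotientGroup.mk'_apply, QuotientGroup.eq_one_iff]
    exact ⟨_, CoprimeAction.pow_mem_frattini hSs ⟨a, ha⟩, rfl⟩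
  have hmapσ : ∀ H : Subgroup G, (∀ y ∈ H, σ y ∈ H) → ∀ y ∈ H.map π, quotAut σ Φ hΦσ y ∈ H.map π := by
    rintro H hH _ ⟨y, hy, rfl⟩
    exact ⟨σ y, hH y hy, (quotAut_mk σ Φ hΦσ y).symm⟩
  have h := comm_centralizes_abelian (n := n) hq2 hr2 hs2 hqr hqs (quotAut σ Φ hΦσ)
    (quotAut_pow_eq_one Φ hΦσ hσ)
    (quotAut_fpf σ Φ hΦσ fun y hy => mem_of_displacement_mem σ hfpf Φ hΦσ hy)
    (Q.map π) (hQq.map π) (hmapσ Q hQσ) (R.map π) (hRr.map π) (hmapσ R hRσ)
    ((Subgroup.map_mono hRQ).trans (Subgroup.le_normalizer_map π)) (S.map π) hexp (hmapσ S hSσ)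
    (x := π x) (w := π w) ⟨x, hx, rfl⟩ ⟨w, hw, rfl⟩
  have hpow : (quotAut σ Φ hΦσ ^ 2 ^ n) (π x) = π ((σ ^ 2 ^ n) x) := quotAut_pow_mk σ Φ hΦσ _ x
  rw [hpow] at h
  simp only [← map_inv, ← map_mul] at h
  set c := x⁻¹ * (σ ^ 2 ^ n) x with hc
  set z := w⁻¹ * (c * w * c⁻¹) with hz
  have hcR : c ∈ R := mul_mem (inv_mem hx) (pow_apply_mem hRσ _ hx)
  have hzQ : z ∈ Q := mul_mem (inv_mem hw) ((Subgroup.mem_normalizer_iff.1 (hRQ hcR) w).1 hw)
  have hA : IsPGroup q (Subgroup.zpowers z) := hQq.to_le (Subgroup.zpowers_le.2 hzQ)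
  refine CoprimeAction.le_centralizer_of_frattini (A := Subgroup.zpowers z) ?_ ?_ (Subgroup.mem_zpowers z)
  · exact IsPGroup.coprime_card_of_ne q s hqs _ (frattini S) hA (hSs.to_subgroup _)
  · intro a ha y hy
    have ha' : π a ∈ Subgroup.centralizer ((S.map π : Subgroup (G ⧸ Φ)) : Set (G ⧸ Φ)) := by
      have hle : Subgroup.zpowers z ≤
          (Subgroup.centralizer ((S.map π : Subgroup (G ⧸ Φ)) : Set (G ⧸ Φ))).comap π :=
        Subgroup.zpowers_le.2 h
      exact hle ha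
    rw [← hΦ, ← QuotientGroup.eq_one_iff, ← QuotientGroup.mk'_apply, ← hπdef, map_mul, map_mul, map_mul, map_inv,
      map_inv, ← Subgroup.mem_centralizer_iff.1 ha' (π y) ⟨y, hy, rfl⟩, mul_inv_cancel_right, mul_inv_cancel]

/-- Displacements of invariant `r`-subgroups of `G / F(G)` centralise the other cores. -/
theorem centralizes_second [(Cfsg.fittingSubgroup G).Normal] {n : ℕ} (σ : MulAut G)
    (hσ : σ ^ 2 ^ (n + 1) = 1) (hfpf : ∀ g, σ g = g → g = 1)
    (hFσ : ∀ x ∈ Cfsg.fittingSubgroup G, σ x ∈ Cfsg.fittingSubgroup G) (r q : ℕ) (hr : r.Prime) (hq : q.Prime)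
    (hqr : q ≠ r) (Rb : Subgroup (G ⧸ Cfsg.fittingSubgroup G)) (hRb : IsPGroup r Rb)
    (hRbσ : ∀ a ∈ Rb, quotAut σ (Cfsg.fittingSubgroup G) hFσ a ∈ Rb) :
    ∀ a ∈ Rb, a⁻¹ * (quotAut σ (Cfsg.fittingSubgroup G) hFσ ^ 2 ^ n) a ∈
      Subgroup.centralizer (Cfsg.pCore q (G ⧸ Cfsg.fittingSubgroup G) : Set (G ⧸ Cfsg.fittingSubgroup G)) := by
  classical
  haveI := Fact.mk hq
  haveI := Fact.mk hr
  set F := Cfsg.fittingSubgroup G with hF
  set σF := quotAut σ F hFσ with hσF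
  set π := QuotientGroup.mk' F with hπ
  intro a ha
  have h2G := not_dvd_card Nat.prime_two σ hσ hfpf
  have h2Gb : ¬ 2 ∣ Nat.card (G ⧸ F) := fun h => h2G (h.trans (Subgroup.card_quotient_dvd_card F))
  set Qb := Cfsg.pCore q (G ⧸ F) with hQb
  rcases eq_or_ne Rb ⊥ with hR0 | hR0
  · rw [hR0, Subgroup.mem_bot] at ha
    rw [ha, map_one, inv_one, one_mul]
    exact one_mem _
  rcases eq_or_ne Qb ⊥ with hQ0 | hQ0
  · rw [hQ0, Subgroup.mem_centralizer_iff]
    intro y hy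
    rw [SetLike.mem_coe, Subgroup.mem_bot] at hy
    rw [hy, one_mul, mul_one]
  have hQbq : IsPGroup q Qb := CfsgLib.PCore.isPGroup_pCore q (G ⧸ F)
  have hr2 : r ≠ 2 := prime_ne_of_dvd h2Gb hr hRb hR0
  have hq2 : q ≠ 2 := prime_ne_of_dvd h2Gb hq hQbq hQ0
  haveI : Qb.Normal :=
    haveI := CfsgLib.PCore.pCore_characteristic q (G ⧸ F)
    inferInstance
  have hQbσ : ∀ b ∈ Qb, σF b ∈ Qb :=
    characteristic_invariant _ (CfsgLib.PCore.pCore_characteristic q (G ⧸ F)) σF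
  set M := Qb.comap π with hM
  haveI : M.Normal := by rw [hM]; infer_instance
  have hMσ : ∀ x ∈ M, σ x ∈ M := by
    intro x hx
    show π (σ x) ∈ Qb
    rw [hπ, QuotientGroup.mk'_apply, ← quotAut_mk σ F hFσ]
    exact hQbσ _ hx
  obtain ⟨P, hP⟩ := exists_invariant_sylow Nat.prime_two σ hσ hfpf M hMσ q
  set Q : Subgroup G := (P : Subgroup M).map M.subtype with hQdef
  have hMK : M ≤ Q ⊔ F := sup_ker_eq π M F (QuotientGroup.ker_mk' F) P (by
    rw [hM, Subgroup.map_comap_eq_self_of_surjective (QuotientGroup.mk'_surjective F)]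
    exact hQbq)
  -- the normaliser of the invariant Sylow subgroup
  set J := Rb ⊔ Qb with hJ
  have hJσ : ∀ b ∈ J, σF b ∈ J := by
    have hle : J ≤ J.comap σF.toMonoidHom :=
      sup_le (fun b hb => Subgroup.mem_sup_left (hRbσ b hb)) (fun b hb => Subgroup.mem_sup_right (hQbσ b hb))
    exact fun b hb => hle hb
  set L := Subgroup.normalizer (Q : Set G) ⊓ J.comap π with hL
  have hQmap : Q.map σ.toMonoidHom = Q := map_eq_self σ Q hP
  have hNσ : ∀ x ∈ Subgroup.normalizer (Q : Set G), σ x ∈ Subgroup.normalizer (Q : Set G) := by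
    intro x hx
    have h1 := Subgroup.le_normalizer_map σ.toMonoidHom (H := Q) ⟨x, hx, rfl⟩
    rwa [hQmap] at h1
  have hLσ : ∀ x ∈ L, σ x ∈ L := fun x hx => by
    rw [hL, Subgroup.mem_inf, Subgroup.mem_comap] at hx ⊢
    refine ⟨hNσ x hx.1, ?_⟩
    rw [hπ, QuotientGroup.mk'_apply, ← quotAut_mk σ F hFσ]
    exact hJσ _ hx.2
  obtain ⟨PR, hPR⟩ := exists_invariant_sylow Nat.prime_two σ hσ hfpf L hLσ r
  set R : Subgroup G := (PR : Subgroup L).map L.subtype with hRdef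
  have hRL : R ≤ L := Subgroup.map_subtype_le _
  have hRQ : R ≤ Subgroup.normalizer (Q : Set G) := fun x hx => (Subgroup.mem_inf.1 (hRL hx)).1
  have hfr : Subgroup.normalizer (Q : Set G) ⊔ M = ⊤ := Sylow.normalizer_sup_eq_top P
  have hfL : ∀ b ∈ J, ∃ l ∈ L, (π l)⁻¹ * b ∈ Qb := by
    intro b hb
    obtain ⟨y, rfl⟩ := QuotientGroup.mk'_surjective F b
    obtain ⟨l, hl, m, hm, hlm⟩ := Subgroup.mem_sup_of_normal_right.1 (hfr ▸ Subgroup.mem_top y)
    have hmQ : π m ∈ Qb := hm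
    refine ⟨l, Subgroup.mem_inf.2 ⟨hl, ?_⟩, ?_⟩
    · show π l ∈ J
      have e : π l = π y * (π m)⁻¹ := by rw [← hlm]; simp [map_mul, mul_assoc]
      rw [e]
      exact mul_mem hb (inv_mem (Subgroup.mem_sup_right hmQ))
    · show (π l)⁻¹ * π y ∈ Qb
      rwa [← hlm, map_mul, inv_mul_cancel_left]
  set Qm := QuotientGroup.mk' Qb
  have hmapJ : J.map Qm = Rb.map Qm := by
    rw [hJ, Subgroup.map_sup, (Subgroup.map_eq_bot_iff (f := Qm) Qb).2 (by rw [QuotientGroup.ker_mk']), sup_bot_eq]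
  have hLK : L ≤ R ⊔ (Qm.comp π).ker.comap (MonoidHom.id G) := by
    refine sup_ker_eq (Qm.comp π) L _ rfl PR ?_
    refine (hRb.map Qm).to_le ?_
    rw [← hmapJ, ← Subgroup.map_map]
    exact Subgroup.map_mono (by rintro _ ⟨l, hl, rfl⟩; exact (Subgroup.mem_inf.1 hl).2)
  have hker : (Qm.comp π).ker.comap (MonoidHom.id G) = M := by
    rw [Subgroup.comap_id, ← MonoidHom.comap_ker, QuotientGroup.ker_mk']
  rw [hker] at hLK
  -- write `a` as an element of the image of `R` times an element of the layer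
  obtain ⟨l, hl, hla⟩ := hfL a (Subgroup.mem_sup_left ha)
  obtain ⟨y, hy, m, hm, hym⟩ := Subgroup.mem_sup_of_normal_right.1 (hLK hl)
  set v := (π y)⁻¹ * a with hv
  have hvQ : v ∈ Qb := by
    have e : v = π m * ((π l)⁻¹ * a) := by rw [hv, ← hym, map_mul]; group
    rw [e]
    exact mul_mem hm hla
  set τF := σF ^ 2 ^ n with hτF
  set c := (π y)⁻¹ * τF (π y) with hc
  have hd : a⁻¹ * τF a = v⁻¹ * c * τF v := by
    have e : a = π y * v := by rw [hv, mul_inv_cancel_left]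
    rw [hc, e, map_mul]; group
  set d := a⁻¹ * τF a with hd'
  clear_value v c d
  -- `c` centralises the layer
  have hcC : ∀ b ∈ Qb, c * b * c⁻¹ = b := by
    intro b hb
    obtain ⟨z, rfl⟩ := QuotientGroup.mk'_surjective F b
    obtain ⟨w, hw, f, hf, rfl⟩ := Subgroup.mem_sup_of_normal_right.1 (hMK (show z ∈ M from hb))
    have hwM : w ∈ M := Subgroup.map_subtype_le _ hw
    have hf1 : π f = 1 := (QuotientGroup.eq_one_iff f).2 hf
    rw [map_mul, ← hπ, hf1, mul_one]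
    set cG := y⁻¹ * (σ ^ 2 ^ n) y with hcG
    have hcπ : c = π cG := by
      rw [hc, hτF, hπ, hcG, map_mul, map_inv, QuotientGroup.mk'_apply, QuotientGroup.mk'_apply, hσF, quotAut_pow_mk]
    have hcL : cG ∈ R := mul_mem (inv_mem hy) (pow_apply_mem hPR _ hy)
    have hzF : w⁻¹ * (cG * w * cG⁻¹) ∈ F := by
      refine inf_centralizers_le_fitting hq M (layer_pElem hq)
        (mul_mem (inv_mem hwM) ((inferInstance : M.Normal).conj_mem w hwM cG)) fun s hs hsq => ?_
      haveI := Fact.mk hs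
      rcases eq_or_ne (Cfsg.pCore s G) ⊥ with hS0 | hS0
      · rw [hS0, Subgroup.mem_centralizer_iff]
        intro u hu
        rw [SetLike.mem_coe, Subgroup.mem_bot] at hu
        rw [hu, one_mul, mul_one]
      have hSs : IsPGroup s (Cfsg.pCore s G) := CfsgLib.PCore.isPGroup_pCore s G
      haveI := CfsgLib.PCore.pCore_characteristic s G
      exact comm_centralizes_pgroup hq2 hr2 (prime_ne_of_dvd h2G hs hSs hS0) hqr hsq.symm σ hσ hfpf Q
        (P.2.map _) hP R (PR.2.map _) hPR hRQ (Cfsg.pCore s G) hSs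
        (characteristic_invariant _ (CfsgLib.PCore.pCore_characteristic s G) σ) hy hw
    rw [hcπ, ← map_inv, ← map_mul, ← map_mul, eq_comm, hπ, QuotientGroup.mk'_apply, QuotientGroup.mk'_apply,
      QuotientGroup.eq]
    exact hzF
  -- hence so does `d`
  have hdR : d ∈ Rb := by
    rw [hd', hτF]
    exact mul_mem (inv_mem ha) (pow_apply_mem hRbσ _ ha)
  have hA : IsPGroup r (Subgroup.zpowers d) := hRb.to_le (Subgroup.zpowers_le.2 hdR)
  set ΦQ : Subgroup (G ⧸ F) := (frattini Qb).map Qb.subtype with hΦQ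
  have hτv : τF v ∈ Qb := pow_apply_mem hQbσ _ hvQ
  have habel : ∀ u ∈ Qb, ∀ b ∈ Qb, u * b * u⁻¹ * b⁻¹ ∈ ΦQ := fun u hu b hb =>
    ⟨_, CoprimeAction.commutator_le_frattini' hQbq
      (Subgroup.commutator_mem_commutator (Subgroup.mem_top (⟨u, hu⟩ : Qb)) (Subgroup.mem_top (⟨b, hb⟩ : Qb))),
      rfl⟩
  haveI : ΦQ.Normal := by rw [hΦQ]; infer_instance
  refine CoprimeAction.le_centralizer_of_frattini (A := Subgroup.zpowers d) (K := Qb) ?_ ?_
    (Subgroup.mem_zpowers d)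
  · exact IsPGroup.coprime_card_of_ne r q hqr.symm _ (frattini Qb) hA (hQbq.to_subgroup _)
  · intro g hg b hb
    set πQ := QuotientGroup.mk' ΦQ with hπQ
    have hcomm' : ∀ u ∈ Qb, ∀ b ∈ Qb, πQ u * πQ b = πQ b * πQ u := fun u hu b hb => by
      have h1 : πQ (u * b * u⁻¹ * b⁻¹) = 1 := (QuotientGroup.eq_one_iff _).2 (habel u hu b hb)
      rw [map_mul, map_mul, map_mul, map_inv, map_inv] at h1
      exact mul_inv_eq_iff_eq_mul.1 (mul_inv_eq_one.1 h1)
    have hdC : d ∈ (Subgroup.centralizer ((Qb.map πQ : Subgroup _) : Set ((G ⧸ F) ⧸ ΦQ))).comap πQ := by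
      rw [Subgroup.mem_comap, Subgroup.mem_centralizer_iff]
      rintro _ ⟨b, hb, rfl⟩
      have h1 : c * b = b * c := mul_inv_eq_iff_eq_mul.1 (hcC b hb)
      rw [hd, map_mul, map_mul, map_inv]
      calc πQ b * ((πQ v)⁻¹ * πQ c * πQ (τF v)) = (πQ b * πQ v⁻¹) * πQ c * πQ (τF v) := by
            rw [map_inv]; group
        _ = (πQ v⁻¹ * πQ b) * πQ c * πQ (τF v) := by rw [hcomm' b hb v⁻¹ (inv_mem hvQ)]
        _ = (πQ v)⁻¹ * (πQ b * πQ c) * πQ (τF v) := by rw [map_inv]; group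
        _ = (πQ v)⁻¹ * (πQ c * πQ b) * πQ (τF v) := by rw [← map_mul πQ b c, ← h1, map_mul]
        _ = (πQ v)⁻¹ * πQ c * (πQ b * πQ (τF v)) := by group
        _ = (πQ v)⁻¹ * πQ c * (πQ (τF v) * πQ b) := by rw [hcomm' b hb _ hτv]
        _ = (πQ v)⁻¹ * πQ c * πQ (τF v) * πQ b := by group
    have hg' := (Subgroup.zpowers_le.2 hdC) hg
    rw [Subgroup.mem_comap, Subgroup.mem_centralizer_iff] at hg'
    rw [← hΦQ, ← QuotientGroup.eq_one_iff, ← QuotientGroup.mk'_apply, ← hπQ, map_mul, map_mul, map_mul, map_inv,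
      map_inv, ← hg' (πQ b) ⟨b, hb, rfl⟩, mul_inv_cancel_right, mul_inv_cancel]

/-- The involution among the powers of the automorphism acts trivially modulo the second Fitting subgroup. -/
theorem mem_fitting_two [Group.IsSolvable G] [(Cfsg.fittingSubgroup G).Normal] {n : ℕ} (σ : MulAut G)
    (hσ : σ ^ 2 ^ (n + 1) = 1) (hfpf : ∀ g, σ g = g → g = 1) (g : G) :
    ((g⁻¹ * (σ ^ 2 ^ n) g : G) : G ⧸ Cfsg.fittingSubgroup G) ∈
      Cfsg.fittingSubgroup (G ⧸ Cfsg.fittingSubgroup G) := by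
  set F := Cfsg.fittingSubgroup G with hF
  have hFσ : ∀ x ∈ F, σ x ∈ F := characteristic_invariant F Components.fittingSubgroup_characteristic σ
  haveI : Group.IsSolvable (G ⧸ F) :=
    Group.isSolvable_of_surjective (f := QuotientGroup.mk' F) (QuotientGroup.mk'_surjective F)
  have h := mem_fitting_of_centralizes Nat.prime_two (quotAut σ F hFσ) (quotAut_pow_eq_one F hFσ hσ)
    (quotAut_fpf σ F hFσ fun x hx => mem_of_displacement_mem σ hfpf F hFσ hx)
    (fun r q hr hq hqr Rb hRb hRbσ a ha => centralizes_second σ hσ hfpf hFσ r q hr hq hqr Rb hRb hRbσ a ha)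
    (g : G ⧸ F)
  rw [quotAut_pow_mk, ← QuotientGroup.mk_inv, ← QuotientGroup.mk_mul] at h
  exact h

end CfsgLib.GrossTwo
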