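import Cfsg.Agent.GrossTwo.Basic
import Cfsg.Agent.ShultGross.Special

/-!
In the exceptional case some vector fixed by the last power is negated by the one before.
-/

set_option autoImplicit false
set_option linter.style.haveILetI false
set_option linter.unusedSectionVars false

namespace CfsgLib.GrossTwo

open CfsgLib.ShultGross
open scoped commutatorElement

variable {k : Type*} [Field k] [IsAlgClosed k] {V : Type*} [AddCommGroup V] [Module k V] [FiniteDimensional k V]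
  [Nontrivial V] {Q : Type*} [Group Q] [Finite Q]

theorem pow_apply_eigen (T : Module.End k V) {ω : k} {w : V} (h : T w = ω • w) (l : ℕ) :
    (T ^ l) w = ω ^ l • w := by
  induction l with
  | zero => simp
  | succ l IH => rw [pow_succ', Module.End.mul_apply, IH, map_smul, h, smul_smul, pow_succ]

theorem special_two {p n : ℕ} (hp : p.Prime) (hp2 : p = 2) (hpk : (p : k) ≠ 0) {q : ℕ} [Fact q.Prime]
    (hqk : (q : k) ≠ 0) (hQ : IsPGroup q Q) (ρ : Q →* Module.End k V) (hinj : Function.Injective ρ)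
    (σ : MulAut Q) (T : Module.End k V) (hσ : σ ^ p ^ (n + 1) = 1) (hT : T ^ p ^ (n + 1) = 1)
    (hTρ : ∀ x, T * ρ x = ρ (σ x) * T) (hfpf : ∀ v, T v = v → v = 0)
    (hdef : (T ^ p ^ (n - 1) - 1) * (T ^ p ^ n + 1) = 0)
    (hirr : ∀ U : Submodule k V, (∀ x, ∀ v ∈ U, ρ x v ∈ U) → (∀ v ∈ U, T v ∈ U) → U = ⊥ ∨ U = ⊤)
    (hcomm : ∀ x y : Q, ⁅x, y⁆ ∈ Subgroup.center Q)
    (hdisp : ∀ x, x⁻¹ * (σ ^ p ^ n) x ∈ Subgroup.center Q → x ∈ Subgroup.center Q)
    (hne : Subgroup.center Q ≠ ⊤) : False := by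
  classical
  set Z := Subgroup.center Q with hZdef
  have hZσ := center_invariant σ
  have hZρ : ∀ x ∈ Z, ∀ y, ρ x * ρ y = ρ y * ρ x := fun x hx y => by
    rw [← map_mul, ← map_mul, Subgroup.mem_center_iff.1 hx y]
  obtain ⟨i, hin, W, hW0, hWQ, hWT, hWfpf, hWscal, hWirr⟩ :=
    exists_block hp ρ σ T hσ hT hTρ hfpf hirr Z hZσ hZρ
  obtain ⟨m, rfl⟩ : ∃ m, n = i + m := ⟨n - i, by omega⟩
  haveI : Nontrivial W := Submodule.nontrivial_iff_ne_bot.2 hW0
  let ρW := subRep ρ W hWQ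
  let TW : Module.End k W := (T ^ p ^ i).restrict hWT
  have hjm : p ^ i * p ^ (m + 1) = p ^ (i + m + 1) := by rw [← pow_add, add_assoc]
  have hτ : (σ ^ p ^ i) ^ p ^ m = σ ^ p ^ (i + m) := by rw [← pow_mul, ← pow_add]
  have hTW : TW ^ p ^ (m + 1) = 1 := LinearMap.ext fun w => Subtype.ext (by
    rw [restrict_pow, ← pow_mul, hjm, hT]; rfl)
  have hTρW : ∀ x, TW * ρW x = ρW ((σ ^ p ^ i) x) * TW := fun x => LinearMap.ext fun w => Subtype.ext (by
    exact LinearMap.congr_fun (pow_semiconj hTρ (p ^ i) x) (w : V))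
  have hfpfW : ∀ w : W, TW w = w → w = 0 := fun w h =>
    Subtype.ext (hWfpf w w.2 (congrArg Subtype.val h))
  have hirrW : ∀ U : Submodule k W, (∀ x, ∀ v ∈ U, ρW x v ∈ U) → (∀ v ∈ U, TW v ∈ U) → U = ⊥ ∨ U = ⊤ := by
    intro U h1 h2
    rcases hWirr (U.map W.subtype) (Submodule.map_subtype_le W U)
      (by rintro x _ ⟨u, hu, rfl⟩; exact ⟨ρW x u, h1 x u hu, rfl⟩)
      (by rintro _ ⟨u, hu, rfl⟩; exact ⟨TW u, h2 u hu, rfl⟩) with h | h
    · left
      exact Submodule.map_injective_of_injective W.injective_subtype (by rw [h, Submodule.map_bot])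
    · right
      exact Submodule.map_injective_of_injective W.injective_subtype (by rw [h, Submodule.map_subtype_top])
  have hWscal' : ∀ x ∈ Z, ∃ c : k, ρW x = c • (1 : Module.End k W) := fun x hx => by
    obtain ⟨c, hc⟩ := hWscal x hx
    exact ⟨c, LinearMap.ext fun w => Subtype.ext (hc w w.2)⟩
  have hnc : ¬ ∀ x y, ρW x * ρW y = ρW y * ρW x := by
    intro hall
    refine hne (eq_top_iff.2 fun x _ => Subgroup.mem_center_iff.2 fun y => ?_)
    refine commutatorElement_eq_one_iff_mul_comm.1 (hinj ?_)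
    rw [map_one]
    refine translates_faithful ρ σ T (pow_pos hp.pos _) hσ hTρ hirr W hW0 hWQ fun l w hw => ?_
    have h1 : ρW ⁅(σ ^ l) y, (σ ^ l) x⁆ = 1 := by
      rw [commutatorElement_def, map_mul, map_mul, map_mul, hall ((σ ^ l) y) ((σ ^ l) x),
        mul_assoc (ρW ((σ ^ l) x)), ← map_mul, mul_inv_cancel, map_one, mul_one, ← map_mul, mul_inv_cancel,
        map_one]
    have h2 := congrArg Subtype.val (LinearMap.congr_fun h1 ⟨w, hw⟩)
    rw [map_commutatorElement]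
    simpa [ρW] using h2
  obtain ⟨R₀, -, -, -, -, hindex, -, hRtop, hspec⟩ := index_block hp hpk hqk hQ ρW (σ ^ p ^ i) TW
    (by rw [← pow_mul, hjm, hσ]) hTW hTρW hfpfW hirrW Z (fun x hx => pow_apply_mem hZσ _ hx)
    hWscal' hcomm (fun x hx => hdisp x (by rwa [hτ] at hx)) hnc
  subst hp2
  obtain ⟨m, rfl⟩ : ∃ m', m = m' + 1 := by
    rcases Nat.eq_zero_or_pos m with rfl | h
    · exact absurd (Subgroup.index_eq_one.1 (by rw [hindex]; norm_num)) hRtop
    · exact ⟨m - 1, by omega⟩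
  obtain ⟨ω, hω⟩ := IsAlgClosed.exists_pow_nat_eq (-1 : k) (pow_pos Nat.two_pos m : 0 < 2 ^ m)
  have hω1 : ω ^ 2 ^ (m + 1) = 1 := by rw [pow_succ, pow_mul, hω, neg_one_sq]
  have h2 : (2 : k) ≠ 0 := by exact_mod_cast hpk
  obtain ⟨w, hw0, hw⟩ := hspec ω (by rw [pow_succ, pow_mul, hω1, one_pow]) (fun h1 => by
    rw [h1, one_pow] at hω
    refine h2 ?_
    linear_combination hω)
  have hwv : (T ^ 2 ^ i) (w : V) = ω • (w : V) := congrArg Subtype.val hw
  have e1 : (T ^ 2 ^ (i + (m + 1) - 1)) (w : V) = -(w : V) := by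
    rw [show i + (m + 1) - 1 = i + m by omega, pow_add, pow_mul, pow_apply_eigen _ hwv, hω, neg_one_smul]
  have e2 : (T ^ 2 ^ (i + (m + 1))) (w : V) = (w : V) := by
    rw [pow_add, pow_mul, pow_apply_eigen _ hwv, hω1, one_smul]
  have h0 := LinearMap.congr_fun hdef (w : V)
  rw [Module.End.mul_apply, LinearMap.add_apply, Module.End.one_apply, e2, LinearMap.sub_apply,
    Module.End.one_apply, map_add, e1, LinearMap.zero_apply] at h0
  have h4 : ((2 : k) * 2) • (w : V) = 0 := by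
    rw [mul_smul, two_smul, two_smul]
    have := congrArg Neg.neg h0
    rw [neg_zero] at this
    rw [← this]
    abel
  exact hw0 (Subtype.ext ((smul_eq_zero.1 h4).resolve_left (mul_ne_zero h2 h2)))

end CfsgLib.GrossTwo
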